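import Cfsg.Agent.Lib.AschF.Wreath

/-!
Class 6 (normalisers of groups of symplectic type) relative to a form.
-/

set_option autoImplicit false
set_option linter.unusedSectionVars false

namespace H28.AF

open Matrix Cfsg Cfsg.Geo H10.Asch Module
open scoped MatrixGroups Kronecker commutatorElement

variable {ι : Type} [Fintype ι] [DecidableEq ι] {F : Type*} [Field F]

theorem spanA_comm {A : Subgroup (GL ι F)} (hc : ∀ x ∈ A, ∀ y ∈ A, x * y = y * x) :
    ∀ x ∈ spanA F A, ∀ y ∈ spanA F A, x * y = y * x := fun _ hx _ hy =>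
  comm_of_mem_spanA (fun u hu => (comm_of_mem_spanA (fun w hw => by
    rw [← Units.val_mul, hc u hu w hw, Units.val_mul]) hx).symm) hy

theorem isSymplecticTypeGroup_of' [Finite F] [Nontrivial ι] {r : ℕ} {R : Subgroup (GL ι F)}
    (hR : IsEA r R) (hab : ∀ A : Subgroup R, A.Characteristic →
      (∀ x ∈ A.map R.subtype, ∀ y ∈ A.map R.subtype, x * y = y * x) →
      A.map R.subtype ≤ scalars ι F) (hpow : ∀ x ∈ R, x ^ rr r = 1) :
    IsSymplecticTypeGroup r R := by
  have hdvd : Monoid.exponent R ∣ rr r :=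
    Monoid.exponent_dvd_of_forall_pow_eq_one fun g => Subtype.ext (hpow _ g.2)
  obtain ⟨x, hx, hxZ⟩ := SetLike.not_le_iff_exists.1 (not_le_scalars (irr_of_spanA_eq_top hR.span))
  obtain ⟨y, hy, hne⟩ := exists_not_comm hR.span hxZ
  refine ⟨hR.prime, fun g => ⟨2, Subtype.ext ?_⟩, fun A hA hc => ?_, ?_⟩
  · obtain ⟨k, hk⟩ : rr r ∣ r ^ 2 := by
      rw [rr, sq]; exact mul_dvd_mul_left r (Nat.gcd_dvd_right 2 r)
    rw [Subgroup.coe_pow, hk, pow_mul, hpow _ g.2, one_pow]; rfl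
  · have hle : A.map R.subtype ≤ scalars ι F := hab A hA (by
      rintro _ ⟨a, ha, rfl⟩ _ ⟨b, hb, rfl⟩
      exact congrArg (fun z : A => ((z : R) : GL ι F)) (hc.is_comm.comm ⟨a, ha⟩ ⟨b, hb⟩))
    have := isCyclic_scalars (ι := ι) (F := F)
    exact isCyclic_of_injective ((Subgroup.inclusion hle).comp
      (A.equivMapOfInjective R.subtype R.subtype_injective).toMonoidHom)
      ((Subgroup.inclusion_injective hle).comp (MulEquiv.injective _))
  · have hexp : ∀ z ∈ R, z ^ Monoid.exponent R = 1 := fun z hz =>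
      congrArg Subtype.val (Monoid.pow_exponent_eq_one (⟨z, hz⟩ : R))
    change _ = rr r
    rcases hR.prime.eq_two_or_odd' with rfl | hodd
    · rw [rr_two] at hdvd ⊢
      have h4 : Monoid.exponent R ∣ 2 ^ 2 := hdvd
      obtain ⟨k, hk, hk'⟩ := (Nat.dvd_prime_pow Nat.prime_two).1 h4
      by_contra hne4
      have hk2 : Monoid.exponent R ∣ 2 := by
        rw [hk']
        interval_cases k
        · norm_num
        · norm_num
        · exact absurd hk' hne4
      have hsq : ∀ z ∈ R, z * z = 1 := fun z hz => by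
        obtain ⟨l, hl⟩ := hk2
        rw [← sq, hl, pow_mul, hexp z hz, one_pow]
      apply hne
      have e1 := hsq _ (R.mul_mem hx hy)
      calc y * x = (x * x) * (y * x) * (y * y) := by rw [hsq x hx, hsq y hy, one_mul, mul_one]
        _ = x * (x * y * (x * y)) * y := by simp only [mul_assoc]
        _ = x * y := by rw [e1, mul_one]
    · rw [rr_odd hodd] at hdvd ⊢
      refine ((Nat.dvd_prime hR.prime).1 hdvd).resolve_left fun h1 => hxZ ?_
      have := hexp x hx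
      rw [h1, pow_one] at this
      rw [this]; exact Subgroup.one_mem _

theorem card_subgroupOf_scalars [Nonempty ι] (R : Subgroup (GL ι F)) :
    Nat.card ((scalars ι F).subgroupOf R) = Nat.card (R.comap (sc ι F)) := by
  symm
  refine Nat.card_congr (Equiv.ofBijective (fun c => ⟨⟨sc ι F c.1, c.2⟩, sc_mem _⟩) ⟨?_, ?_⟩)
  · intro c d hcd
    exact Subtype.ext (sc_injective (congrArg (fun x => x.1.1) hcd))
  · rintro ⟨⟨x, h1⟩, hx⟩
    obtain ⟨c, rfl⟩ : ∃ c, sc ι F c = x := hx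
    exact ⟨⟨c, h1⟩, rfl⟩

theorem card_powKer [Fintype F] (z : ℕ) :
    Nat.card (powMonoidHom z : Fˣ →* Fˣ).ker = (Fintype.card F - 1).gcd z := by
  classical
  rw [IsCyclic.card_powMonoidHom_ker, Nat.card_eq_fintype_card, Fintype.card_units]

theorem card_subgroupOf_scalars_eq [Fintype F] [Nonempty ι] {R : Subgroup (GL ι F)} {z : ℕ}
    (h : ∀ c : Fˣ, sc ι F c ∈ R ↔ c ^ z = 1) :
    Nat.card ((scalars ι F).subgroupOf R) = (Fintype.card F - 1).gcd z := by
  rw [card_subgroupOf_scalars, ← card_powKer]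
  congr 2
  ext c
  exact h c

theorem isEA_card_quotient_le [Nonempty ι] {r : ℕ} {N A : Subgroup (GL ι F)} (h : IsEA r N)
    (hA : A ≤ N) : Nat.card (A ⧸ (scalars ι F).subgroupOf A) ≤ finrank F (spanA F A) := by
  let v : A ⧸ (scalars ι F).subgroupOf A → spanA F A := fun q =>
    ⟨((q.out : A) : GL ι F), coe_mem_spanA q.out.2⟩
  have hli : LinearIndependent F v := by
    rw [linearIndependent_iff']
    intro s c hc q hq
    have h1 := congrArg (fun x : spanA F A =>
      ((((q.out : A) : GL ι F)⁻¹ : GL ι F) * (x : Matrix ι ι F) : Matrix ι ι F).trace) hc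
    simp only [AddSubmonoidClass.coe_finsetSum, Subalgebra.coe_smul, Finset.mul_sum,
      Matrix.trace_sum, Matrix.mul_smul, Matrix.trace_smul, Subalgebra.coe_zero, mul_zero,
      Matrix.trace_zero] at h1
    rw [Finset.sum_eq_single q] at h1
    · simp only [v, Units.inv_mul, Matrix.trace_one, smul_eq_mul] at h1
      exact (mul_eq_zero.1 h1).resolve_right h.card_ne_zero
    · intro q' _ hq'
      simp only [v]
      rw [← Units.val_mul, h.trace_eq_zero (hA (A.mul_mem (A.inv_mem q.out.2) q'.out.2)), smul_zero]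
      intro hZ
      apply hq'
      rw [← q.out_eq, ← q'.out_eq, eq_comm]
      exact QuotientGroup.eq.2 hZ
    · intro h'; exact absurd hq h'
  have := hli.finite
  have := Fintype.ofFinite (A ⧸ (scalars ι F).subgroupOf A)
  rw [Nat.card_eq_fintype_card]
  exact hli.fintype_card_le_finrank

theorem fixes_trace_inv {σ : F →+* F} {N : Subgroup (GL ι F)} {G : Matrix ι ι F} (hG : IsUnit G)
    (h : Fixes σ N G) {g : GL ι F} (hg : g ∈ N) :
    ((g⁻¹ : GL ι F) : Matrix ι ι F).trace = σ (g : Matrix ι ι F).trace := by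
  obtain ⟨G, rfl⟩ := hG
  have h1 : cj G ((g : Matrix ι ι F).map σ) = ((g⁻¹ : GL ι F) : Matrix ι ι F)ᵀ := by
    rw [cj_eq_iff]
    conv_rhs => rw [← h g hg]
    rw [← mul_assoc, ← mul_assoc, ← transpose_mul, Units.mul_inv, transpose_one, one_mul]
  rw [← trace_transpose, ← h1, trace_cj, AddMonoidHom.map_trace]

namespace SF

variable (S : SF ι F)

theorem Prim.le_scalars [Nonempty ι] {S : SF ι F} {H A : Subgroup (GL ι F)} (hP : S.Prim H)
    (hA : A ≤ similarityGroup S.f) (hn : NrmS H A) (hc : ∀ x ∈ A, ∀ y ∈ A, x * y = y * x) :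
    A ≤ scalars ι F :=
  le_scalars_of_spanA (hP _ (spanA_comm hc) (nrm_spanA hn) (S.cl_spanA hA))

theorem Prim.char_le {S : SF ι F} [Nonempty ι] {H R : Subgroup (GL ι F)} (hP : S.Prim H)
    (hR : R ≤ similarityGroup S.f) (hn : NrmS H R) (A : Subgroup R) (hA : A.Characteristic)
    (hc : ∀ x ∈ A.map R.subtype, ∀ y ∈ A.map R.subtype, x * y = y * x) :
    A.map R.subtype ≤ scalars ι F :=
  hP.le_scalars ((Subgroup.map_subtype_le A).trans hR) (hn.map_characteristic A hA) hc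

theorem even_finrank (hσ : ∀ a, S.σ a = a) (hA : ∀ v, S.f v v = 0) {W : Submodule F (ι → F)}
    (hW : IsNondegenerateOn S.f W) : Even (finrank F W) := by
  let b := (Module.finBasis F W).equivFun.symm
  have hs := S.isSymplecticForm hσ hA
  have : IsSymplecticForm fun x y => S.f (b x) (b y) :=
    ⟨⟨fun x y v => by rw [map_add, Submodule.coe_add, add_left],
      fun c x v => by rw [map_smul, Submodule.coe_smul, smul_left],
      fun x y v => by rw [map_add, Submodule.coe_add, add_right],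
      fun c x v => by rw [map_smul, Submodule.coe_smul, smul_right, hσ]⟩,
      fun v w => hs.skew _ _, fun v => hA _, fun v hv => by
        obtain ⟨⟨x, hx, h1⟩, y, hy, h2⟩ := hW _ (b v).2 (by simpa using hv)
        exact ⟨⟨b.symm ⟨x, hx⟩, by simpa using h1⟩, b.symm ⟨y, hy⟩, by simpa using h2⟩⟩
  simpa using even_card_of_symplectic this

theorem sc_mem_isom [Nonempty ι] {c : Fˣ} : sc ι F c ∈ S.Isom ↔ S.σ c * c = 1 := by
  rw [mem_isom_iff_st, coe_sc, st_smul_one, smul_mul_assoc, one_mul, smul_smul]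
  constructor
  · intro h
    obtain ⟨i⟩ := ‹Nonempty ι›
    simpa using congrFun (congrFun h i) i
  · intro h; rw [h, one_smul]

theorem isOfMinusType [Fintype F] (h2 : (2 : F) ≠ 0) (hσ : ∀ a, S.σ a = a) (hA : ∀ v, S.f v v = 0)
    {R : Subgroup (GL ι F)} (hR : IsEA 2 R) (hI : R ≤ S.Isom) {k : ℕ} (hk1 : 1 ≤ k)
    (hk : Fintype.card ι = 2 ^ k) : IsOfMinusType k R := by
  have : Nonempty ι := Fintype.card_pos_iff.1 (by rw [hk]; positivity)
  intro A hc hsq
  let A' := A.map R.subtype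
  have hle : A' ≤ R := Subgroup.map_subtype_le A
  have hsq' : ∀ x ∈ A', x * x = 1 := by
    rintro _ ⟨a, ha, rfl⟩; exact congrArg Subtype.val (hsq a ha)
  have hcomm := spanA_comm (A := A') (by
    rintro _ ⟨a, ha, rfl⟩ _ ⟨b, hb, rfl⟩
    exact congrArg (fun z : A => ((z : R) : GL ι F)) (hc.is_comm.comm ⟨a, ha⟩ ⟨b, hb⟩))
  have hst : ∀ x ∈ spanA F A', S.st x = x := fun x hx => by
    refine spanA_induction (p := fun x => S.st x = x) ?_ S.st_zero ?_ ?_ hx
    · intro g hg; rw [S.st_coe (hI (hle hg)), inv_eq_of_mul_eq_one_right (hsq' g hg)]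
    · intro x y hx hy; rw [st_add, hx, hy]
    · intro c x hx; rw [st_smul, hx, hσ]
  have hN : Nrm R (spanA F A' : Set (Matrix ι ι F)) := fun y hy x hx => by
    refine spanA_induction (p := fun x => cj y x ∈ spanA F A') ?_ ?_ ?_ ?_ hx
    · intro g hg
      obtain ⟨ζ, -, hζ⟩ := hR.exists_comm (hle hg) hy
      rw [cj_coe, hζ, ← mul_assoc, mul_inv_cancel_right, coe_sc_mul]
      exact Subalgebra.smul_mem _ (coe_mem_spanA hg) _
    · rw [map_zero]; exact zero_mem _
    · intro x y hx hy; rw [map_add]; exact add_mem hx hy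
    · intro c x hx; rw [map_smul]; exact Subalgebra.smul_mem _ hx c
  obtain ⟨t, e, he, he0, horth, hsum, hprim, -, htr⟩ := exists_idem_system
    (irr_of_spanA_eq_top hR.span) {e | e ∈ spanA F A' ∧ e * e = e} (fun e he => he.2)
    (fun e he f hf => hcomm e he.1 f hf.1) (fun e he f hf => ⟨mul_mem he.1 hf.1, by
      rw [mul_assoc, ← mul_assoc f, hcomm f hf.1 e he.1, mul_assoc, hf.2, ← mul_assoc, he.2]⟩)
    (fun h hh e he => ⟨hN h hh e he.1, by rw [← map_mul, he.2]⟩) ⟨1, ⟨one_mem _, one_mul _⟩, one_ne_zero⟩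
  have hspan : (spanA F A').toSubmodule ≤ Submodule.span F (Set.range e) := fun x hx => by
    refine spanA_induction (p := fun x => x ∈ Submodule.span F (Set.range e)) ?_ (zero_mem _)
      (fun x y hx hy => add_mem hx hy) (fun c x hx => Submodule.smul_mem _ c hx) hx
    intro g hg
    have hg2 : (g : Matrix ι ι F) * g = 1 := by rw [← Units.val_mul, hsq' g hg, Units.val_one]
    rw [← mul_one (g : Matrix ι ι F), ← hsum, Finset.mul_sum]
    refine Submodule.sum_mem _ fun i _ => ?_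
    have hei : e i ∈ Submodule.span F (Set.range e) := Submodule.subset_span ⟨i, rfl⟩
    have hgi : (g : Matrix ι ι F) * e i = (2 : F) • (((2 : F)⁻¹ • (1 + g : Matrix ι ι F)) * e i) - e i := by
      rw [smul_mul_assoc, smul_smul, mul_inv_cancel₀ h2, one_smul, add_mul, one_mul,
        add_sub_cancel_left]
    rw [hgi]
    rcases hprim i ((2 : F)⁻¹ • (1 + g : Matrix ι ι F)) ⟨Subalgebra.smul_mem _
      (add_mem (one_mem _) (coe_mem_spanA hg)) _, by
        rw [smul_mul_smul_comm, add_mul, mul_add, mul_add, hg2, one_mul, one_mul, mul_one,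
          add_comm (g : Matrix ι ι F) 1, ← two_smul F, smul_smul]
        congr 1; field_simp⟩ with h | h <;> rw [h]
    · exact sub_mem (Submodule.smul_mem _ _ (zero_mem _)) hei
    · exact sub_mem (Submodule.smul_mem _ _ hei) hei
  have h1 : finrank F (spanA F A') ≤ t :=
    (Submodule.finrank_mono hspan).trans ((finrank_range_le_card e).trans (by simp))
  have h3 : Nat.card ((scalars ι F).subgroupOf A') ≤ 2 := by
    rw [card_subgroupOf_scalars]
    refine (Subgroup.card_le_of_le (K := (powMonoidHom 2 : Fˣ →* Fˣ).ker) fun c hc => ?_).trans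
      (by rw [card_powKer]; exact Nat.gcd_le_right _ two_pos)
    have := S.sc_mem_isom.1 (hI (hle hc))
    rw [hσ] at this
    exact Units.ext (by simpa [sq] using this)
  have h4 : Nat.card A ≤ t * 2 := by
    rw [← Subgroup.card_map_of_injective R.subtype_injective,
      Subgroup.card_eq_card_quotient_mul_card_subgroup ((scalars ι F).subgroupOf A')]
    exact Nat.mul_le_mul ((isEA_card_quotient_le hR hle).trans h1) h3
  have h5 : 2 ≤ 2 ^ k := by
    calc 2 = 2 ^ 1 := rfl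
      _ ≤ 2 ^ k := Nat.pow_le_pow_right two_pos hk1
  rw [pow_succ]
  by_cases ht : 2 ≤ t
  · have hD := isMDecomposition_im e ht (fun i => (he i).2) he0 horth hsum
      fun i j => (htr i j).imp fun _ h => h.2
    have h6 := IsMDecomposition.mul_eq_card hD
    have h7 := hD.pos
    obtain ⟨d, hd⟩ := S.even_finrank hσ hA (S.nondeg_im (he ⟨0, by omega⟩).2 (hst _ (he _).1))
    rw [hd] at h6 h7
    have : 1 ≤ d := by omega
    nlinarith
  · omega

/-- class 5 for the symplectic case -/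
def SpSub [Fintype F] (H : Subgroup (GL ι F)) : Prop :=
  ∃ (F₀ : Subfield F) (r : ℕ) (P : GL ι F) (ζ : F), r.Prime ∧ Fintype.card F = Nat.card F₀ ^ r ∧
    ζ ≠ 0 ∧ IsFormRationalStructure S.f F₀ ζ P ∧ H ≤ subfieldSubgroup F₀ P

theorem spSub_of [Fintype F] [Nonempty ι] (hσ : ∀ a, S.σ a = a) {H N : Subgroup (GL ι F)}
    (hn : NrmS H N) (hN : spanA F N = ⊤) (hI : N ≤ S.Isom) {F₀ : Subfield F} (hF : F₀ ≠ ⊤)
    (hR : RealisableOver F₀ (matrixSet N)) : S.SpSub H := by
  have hσ' : ∀ F₀ : Subfield F, ∀ c ∈ F₀, S.σ c ∈ F₀ := fun _ c hc => by rwa [hσ]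
  obtain ⟨F₁, r, ζ, P, hr, hc, h0, h1, h2⟩ := S.exists_sub hσ' hn hN hF hR (S.st_eq_of_isom hI _)
  exact ⟨F₁, r, P, ζ, hr, hc, h0, S.rational_of_gr (hσ' _) h1, h2⟩

/-- class 6 for the symplectic case -/
def SpC6 [Fintype F] (H : Subgroup (GL ι F)) : Prop :=
  ∃ (R : Subgroup (GL ι F)) (p k : ℕ), IsSymplecticTypeGroup 2 R ∧
    ActsAbsolutelyIrreducibly (matrixSet R) ∧ R ≤ similarityGroup S.f ∧ p.Prime ∧ Odd p ∧
    Fintype.card F = p ∧ Nat.card R = 2 ^ (1 + 2 * k) ∧ Nat.card (Subgroup.center R) = 2 ∧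
    IsOfMinusType k R ∧ H ≤ subgroupNormalizer R ∧ Fintype.card ι = 2 ^ k ∧ IsEA 2 R

theorem isEA_comm_isom [Nontrivial ι] {r : ℕ} {R : Subgroup (GL ι F)} (hR : IsEA r R)
    (hI : R ≤ similarityGroup S.f) : ∃ ζ : Fˣ, orderOf ζ = r ∧ sc ι F ζ ∈ R ∧ S.σ ζ * ζ = 1 := by
  obtain ⟨x, hx, hxZ⟩ := SetLike.not_le_iff_exists.1 (not_le_scalars (irr_of_spanA_eq_top hR.span))
  obtain ⟨y, hy, hne⟩ := exists_not_comm hR.span hxZ
  obtain ⟨ζ, h1, hζ⟩ := hR.exists_comm hx hy
  have := Fact.mk hR.prime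
  have h2 : sc ι F ζ = y * x * (x * y)⁻¹ := by rw [hζ, mul_inv_cancel_right]
  refine ⟨ζ, orderOf_eq_prime h1 (by rintro rfl; exact hne (by rw [hζ, map_one, one_mul])),
    h2 ▸ mul_mem (mul_mem hy hx) (inv_mem (mul_mem hx hy)), S.sc_mem_isom.1 ?_⟩
  obtain ⟨a, ha⟩ := hI hx
  obtain ⟨b, hb⟩ := hI hy
  intro u v
  have h3 : ∀ w, (y : Matrix ι ι F) *ᵥ ((x : Matrix ι ι F) *ᵥ w) = (sc ι F ζ : Matrix ι ι F) *ᵥ
      ((x : Matrix ι ι F) *ᵥ ((y : Matrix ι ι F) *ᵥ w)) := fun w => by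
    rw [mulVec_mulVec, mulVec_mulVec, mulVec_mulVec, ← Units.val_mul, hζ, mul_assoc]; rfl
  obtain ⟨u, rfl⟩ : ∃ w, u = (x : Matrix ι ι F) *ᵥ ((y : Matrix ι ι F) *ᵥ w) :=
    ⟨_, by rw [gl_mulVec_inv, gl_mulVec_inv]⟩
  obtain ⟨v, rfl⟩ : ∃ w, v = (x : Matrix ι ι F) *ᵥ ((y : Matrix ι ι F) *ᵥ w) :=
    ⟨_, by rw [gl_mulVec_inv, gl_mulVec_inv]⟩
  change S.f ((sc ι F ζ : Matrix ι ι F) *ᵥ _) ((sc ι F ζ : Matrix ι ι F) *ᵥ _) = _
  rw [← h3, ← h3, ha, hb, hb, ha, mul_left_comm]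

theorem sp_c6 [Fintype F] [Nontrivial ι] (hσ : ∀ a, S.σ a = a) (hA : ∀ v, S.f v v = 0)
    {H R : Subgroup (GL ι F)} (hn : NrmS H R) {r : ℕ} (hR : IsEA r R) (hI : R ≤ S.Isom)
    (hab : ∀ A : Subgroup R, A.Characteristic →
      (∀ x ∈ A.map R.subtype, ∀ y ∈ A.map R.subtype, x * y = y * x) →
      A.map R.subtype ≤ scalars ι F) : S.SpSub H ∨ S.SpC6 H := by
  obtain ⟨ζ, hζ, hζR, hζ2⟩ := S.isEA_comm_isom hR (hI.trans S.isom_le_sim)
  have hsq : ∀ c : Fˣ, sc ι F c ∈ R → c ^ 2 = 1 := fun c hc => by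
    have := S.sc_mem_isom.1 (hI hc)
    rw [hσ] at this
    exact Units.ext (by simpa [sq] using this)
  obtain rfl : r = 2 := (Nat.prime_dvd_prime_iff_eq hR.prime Nat.prime_two).1
    (hζ ▸ orderOf_dvd_of_pow_eq_one (hsq ζ hζR))
  have hcases : ∀ c : Fˣ, c ^ 2 = 1 → c = 1 ∨ c = -1 := fun c hc => by
    have : (c : F) * c = 1 := congrArg Units.val ((sq c).symm.trans hc)
    exact (mul_self_eq_one_iff.1 this).imp Units.ext Units.ext
  have hζ1 : ζ = -1 := (hcases ζ (hsq ζ hζR)).resolve_left (by rintro rfl; simp at hζ)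
  obtain ⟨p, hp, ⟨n, hn0⟩, hpp, hcard⟩ := FiniteField.card' F
  have := Fact.mk hpp
  have hp2 : 2 ≠ p := hR.ne_char
  have hodd := hpp.odd_of_ne_two hp2.symm
  have h2 : (2 : F) ≠ 0 := two_ne_zero_iff_odd_card.2 (hcard ▸ hodd.pow)
  by_cases hn1 : n = 1
  · subst hn1
    obtain ⟨k, hk1, hk⟩ := hR.exists_card_eq
    have hZ : Nat.card ((scalars ι F).subgroupOf R) = 2 := by
      rw [card_subgroupOf_scalars_eq (z := 2) fun c => ⟨hsq c, fun hc => by
        rcases hcases c hc with rfl | rfl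
        · rw [map_one]; exact one_mem _
        · rwa [← hζ1]⟩]
      exact Nat.gcd_eq_right hR.dvd_card_sub_one
    refine Or.inr ⟨R, p, k, isSymplecticTypeGroup_of' hR hab fun x hx => ?_,
      absIrr_of_spanA_eq_top hR.span, hI.trans S.isom_le_sim, hpp, hodd, by simpa using hcard, ?_,
      by rw [center_eq_subgroupOf hR.span, hZ], S.isOfMinusType h2 hσ hA hR hI hk1 hk,
      nrmS_iff_le_normalizer.1 hn, hk, hR⟩
    · obtain ⟨c, hc⟩ := mem_scalars_iff'.1 (hR.pow x hx)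
      rw [rr_two, show 4 = 2 * 2 from rfl, pow_mul, ← hc, ← map_pow, hsq c (hc ▸ pow_mem hx 2),
        map_one]
    · rw [hR.card_eq, hZ, hk]; ring
  · refine Or.inl (S.spSub_of hσ hn hR.span hI (fixSub_ne_top (d := 1) hcard one_pos
      (by change 1 < n; omega)) (realisableOver_iff.2 (realisableOver_of_trace hR.span
        (hR.trace_mem _ fun c hc => ?_))))
    rcases hcases c (hsq c hc) with rfl | rfl
    · exact one_mem _
    · exact neg_mem (one_mem _)

theorem usub_of [Fintype F] {q : ℕ} (hF : Fintype.card F = q ^ 2) (hσ : ∀ a, S.σ a = a ^ q)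
    (hε : S.ε = 1) (hι : 2 ≤ Fintype.card ι) {H N : Subgroup (GL ι F)} (hH : H ≤ S.Isom) (hI : Irr H)
    (hn : NrmS H N) (hN : spanA F N = ⊤) {F₀ : Subfield F} (hF₀ : F₀ ≠ ⊤)
    (hR : RealisableOver F₀ (matrixSet N))
    (hc : ∀ g ∈ N, ∃ c ∈ F₀, S.st g = c • ((g⁻¹ : GL ι F) : Matrix ι ι F)) : S.USub q H := by
  have : Nonempty ι := Fintype.card_pos_iff.1 (by omega)
  obtain ⟨F₁, r, ζ, P, hr, hc, h⟩ := S.exists_sub (fun _ c hc => by rw [hσ]; exact pow_mem hc q)
    hn hN hF₀ hR hc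
  exact h.usub hF hσ hε hι hH hI hr hc

/-- class 6 for the unitary case -/
def UC6 [Fintype F] (H : Subgroup (GL ι F)) : Prop :=
  ∃ (r : ℕ) (R : Subgroup (GL ι F)) (p e k : ℕ), IsSymplecticTypeGroup r R ∧
    ActsAbsolutelyIrreducibly (matrixSet R) ∧ R ≤ similarityGroup S.f ∧ r ≠ p ∧
    IsMinimalFieldFor (Nat.card (Subgroup.center R)) p e F ∧
    ((Odd r ∧ Nat.card (Subgroup.center R) = r ∧ 1 ≤ k ∧ Nat.card R = r ^ (1 + 2 * k)) ∨
     (r = 2 ∧ e = 2 ∧ Nat.card (Subgroup.center R) = 4 ∧ Nat.card R = 2 ^ (2 + 2 * k))) ∧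
    H ≤ subgroupNormalizer R ∧ Fintype.card ι = r ^ k ∧ IsEA r R ∧ (Odd r → R ≤ S.Isom)

theorem u_c6 [Fintype F] [Nontrivial ι] {q : ℕ} (hF : Fintype.card F = q ^ 2)
    (hσ : ∀ a, S.σ a = a ^ q) (hε : S.ε = 1) {H N : Subgroup (GL ι F)} (hH : H ≤ S.Isom)
    (hI : Irr H) (hP : S.Prim H) (hn : NrmS H N) {r : ℕ} (hN : IsEA r N)
    (hs : N ≤ similarityGroup S.f) (hω : N ≤ hN.omega ⊔ scalars ι F) : S.USub q H ∨ S.UC6 H := by
  have hR : IsEA r hN.omega := hN.of_le_sup (fun _ hx => hx.1) hω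
  have hRs : hN.omega ≤ similarityGroup S.f := fun x hx => sup_le hs S.scalars_le_sim hx.1
  have hnR := hN.nrmS_omega hn
  have hsc : ∀ c : Fˣ, sc ι F c ∈ hN.omega ↔ c ^ rr r = 1 := fun c =>
    ⟨fun h => sc_injective (ι := ι) (by rw [map_pow, map_one]; exact h.2),
      fun h => ⟨Subgroup.mem_sup_right (sc_mem c), by rw [← map_pow, h, map_one]⟩⟩
  have hZ := card_subgroupOf_scalars_eq hsc
  obtain ⟨p, hp, ⟨e, he0⟩, hpp, hcard⟩ := FiniteField.card' F
  change Fintype.card F = p ^ e at hcard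
  have := Fact.mk hpp
  have hrp : r ≠ p := hR.ne_char
  have hmult : ∀ g ∈ hN.omega, ∃ c : Fˣ, c ^ rr r = 1 ∧ S.σ c = c ∧
      S.st g = (c : F) • ((g⁻¹ : GL ι F) : Matrix ι ι F) := fun g hg => by
    obtain ⟨c, hc⟩ := hRs hg
    have h1 := S.st_mul_self_of_sim hc
    have h2 := congrArg S.st h1
    rw [st_mul, st_st, h1, st_smul_one, S.σσ] at h2
    have h3 : S.σ c = c := by
      obtain ⟨i⟩ := (inferInstance : Nonempty ι)
      simpa using congrFun (congrFun h2 i) i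
    have h4 := S.st_coe_of_sim hc
    rw [h3] at h4
    refine ⟨c, sc_injective (ι := ι) (Units.ext ?_), h3, h4⟩
    have h5 := S.st_pow g (rr r)
    rw [← Units.val_pow_eq_pow_val, hg.2, h4, smul_pow, ← Units.val_pow_eq_pow_val g⁻¹, inv_pow,
      hg.2, inv_one, Units.val_one, st_one] at h5
    rw [map_one, coe_sc, Units.val_pow_eq_pow_val, ← h5, Units.val_one]
  by_cases hmin : ∀ d : ℕ, 0 < d → d < e → ¬ (Fintype.card F - 1).gcd (rr r) ∣ p ^ d - 1
  · right
    obtain ⟨k, hk1, hk⟩ := hR.exists_card_eq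
    have hcen : Nat.card (Subgroup.center hN.omega) = (Fintype.card F - 1).gcd (rr r) := by
      rw [center_eq_subgroupOf hR.span, hZ]
    refine ⟨r, hN.omega, p, e, k, isSymplecticTypeGroup_of' hR (hP.char_le hRs hnR)
      fun x hx => hx.2, absIrr_of_spanA_eq_top hR.span, hRs, hrp,
      ⟨hpp, hp, hcard, by rw [hcen, ← hcard]; exact Nat.gcd_dvd_left _ _, hcen ▸ hmin⟩, ?_,
      nrmS_iff_le_normalizer.1 hnR, hk, hR, fun hodd g hg => ?_⟩
    · rcases hR.prime.eq_two_or_odd' with rfl | hodd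
      · have hp2 := hpp.odd_of_ne_two hrp.symm
        have h4 : ∀ a : ℕ, Odd a → 4 ∣ a ^ 2 - 1 := by
          rintro _ ⟨a, rfl⟩
          exact ⟨a ^ 2 + a, by rw [Nat.sub_eq_of_eq_add]; ring⟩
        have hq : Odd q := by
          rw [← Nat.odd_pow_iff two_ne_zero, ← hF, hcard]; exact hp2.pow
        have hz : (Fintype.card F - 1).gcd (rr 2) = 4 := Nat.gcd_eq_right (hF ▸ h4 q hq)
        refine Or.inr ⟨rfl, ?_, hcen.trans hz, by rw [hR.card_eq, hZ, hz, hk]; ring⟩
        have h5 : ¬ 2 < e := fun h => hmin 2 two_pos h (hz ▸ h4 p hp2)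
        have h6 : e ≠ 1 := by
          rintro rfl
          rw [hF, pow_one] at hcard
          exact (Nat.Prime.not_prime_pow le_rfl) (hcard ▸ hpp)
        omega
      · have hz : (Fintype.card F - 1).gcd (rr r) = r := by
          rw [rr_odd hodd]; exact Nat.gcd_eq_right hR.dvd_card_sub_one
        exact Or.inl ⟨hodd, hcen.trans hz, hk1, by rw [hR.card_eq, hZ, hz, hk]; ring⟩
    · obtain ⟨c, hc1, hc2, hc3⟩ := hmult g hg
      obtain ⟨ζ, hζ, -, hζ2⟩ := S.isEA_comm_isom hR hRs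
      rw [rr_odd hodd] at hc1
      have h1 : r ∣ q + 1 := by
        rw [← hζ]
        apply orderOf_dvd_of_pow_eq_one
        exact Units.ext (by rw [Units.val_pow_eq_pow_val, pow_succ, ← hσ, hζ2, Units.val_one])
      have h2 : c ^ 2 = 1 := by
        obtain ⟨j, hj⟩ := h1
        have : c ^ (q + 1) = 1 := by rw [hj, pow_mul, hc1, one_pow]
        rw [← this]
        exact Units.ext (by rw [Units.val_pow_eq_pow_val, Units.val_pow_eq_pow_val, pow_succ _ q,
          ← hσ, hc2, sq])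
      have h3 : c = 1 := by
        obtain ⟨j, rfl⟩ := hodd
        rwa [pow_succ, pow_mul, h2, one_pow, one_mul] at hc1
      rw [mem_isom_iff_st, hc3, h3, Units.val_one, one_smul, Units.inv_mul]
  · left
    push Not at hmin
    obtain ⟨d, hd0, hde, j, hj⟩ := hmin
    have hmem : ∀ c : Fˣ, c ^ rr r = 1 → (c : F) ∈ fixSub F p d := fun c hc => by
      classical
      have h1 : c ^ (Fintype.card F - 1).gcd (rr r) = 1 :=
        pow_gcd_eq_one.2 ⟨by rw [← Fintype.card_units]; exact pow_card_eq_one, hc⟩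
      rw [mem_fixSub, ← Nat.sub_add_cancel (Nat.one_le_pow d p hpp.pos), pow_succ, hj, pow_mul,
        ← Units.val_pow_eq_pow_val, h1, Units.val_one, one_pow, one_mul]
    refine S.usub_of hF hσ hε Fintype.one_lt_card hH hI hnR hR.span (fixSub_ne_top hcard hd0 hde)
      (realisableOver_iff.2 (realisableOver_of_trace hR.span
        (hR.trace_mem _ fun c hc => hmem c ((hsc c).1 hc)))) fun g hg => ?_
    obtain ⟨c, hc1, -, hc3⟩ := hmult g hg
    exact ⟨c, hmem c hc1, hc3⟩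

end SF

end H28.AF
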