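import Cfsg.Agent.Lib.AschF.Extra
import Cfsg.Agent.Lib.Unitary.Order
import Cfsg.Agent.Lib.Char.BurnsidePQ

/-!
Field subalgebras for alternating forms, canonical frames and small solvable factors.
-/

set_option autoImplicit false
set_option linter.unusedSectionVars false

namespace H28.AF

open Matrix Cfsg Cfsg.Geo H10.Asch Module
open scoped MatrixGroups Kronecker commutatorElement

variable {ι : Type} [Fintype ι] [DecidableEq ι] {F : Type*} [Field F]

theorem eq_bot_of_perfect {G : Type*} [Group G] {K M : Subgroup G} (hK : Group.IsSolvable K) (h : M ≤ K)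
    (hM : ⁅M, M⁆ = M) : M = ⊥ := by
  by_contra hne
  have : Group.IsSolvable M := Group.isSolvable_of_isSolvable_injective (Subgroup.inclusion_injective h)
  have : Nontrivial M := (Subgroup.nontrivial_iff_ne_bot M).2 hne
  apply (Group.IsSolvable.commutator_lt_top_of_nontrivial M).ne
  apply Subgroup.map_injective M.subtype_injective
  rw [Subgroup.map_subtype_commutator, hM, ← MonoidHom.range_eq_map, Subgroup.range_subtype]

theorem isSolvable_GL23 [Fintype F] (h : Fintype.card F = 3) :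
    Group.IsSolvable (⊤ : Subgroup (GL (Fin 2) F)) := by
  refine H8.isSolvable_of_card_dvd (a := 4) (b := 1) Nat.prime_two Nat.prime_three ?_
  rw [Subgroup.card_top, Matrix.card_GL_field, h]
  decide

theorem sq_eq_one_of_card_three [Fintype F] (h : Fintype.card F = 3) {a : F} (ha : a ≠ 0) :
    a * a = 1 := by
  have := FiniteField.pow_card_sub_one_eq_one a ha
  rwa [h, show 3 - 1 = 2 from rfl, sq] at this

theorem dvd_finrank_of_inv [Nonempty ι] {r : ℕ} {K : Subalgebra F (Matrix ι ι F)}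
    (hK : IsFieldSubalgebra r K) {W : Submodule F (ι → F)} (hW : ∀ k ∈ K, ∀ w ∈ W, k *ᵥ w ∈ W) :
    r ∣ finrank F W := by
  let : Field K := (isField_subalgebra hK.comm hK.inv).toField
  let φ : K →+* Module.End F W :=
    { toFun := fun k => (Matrix.toLin' (k : Matrix ι ι F)).restrict (hW k k.2)
      map_one' := LinearMap.ext fun v => Subtype.ext (one_mulVec _)
      map_mul' := fun a b => LinearMap.ext fun v => Subtype.ext (mulVec_mulVec _ _ _).symm
      map_zero' := LinearMap.ext fun v => Subtype.ext (zero_mulVec _)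
      map_add' := fun a b => LinearMap.ext fun v => Subtype.ext (add_mulVec _ _ _) }
  let : Module K W := Module.compHom W φ
  have hst : IsScalarTower F K W := ⟨fun c x v => Subtype.ext (by
    change ((c • x : K) : Matrix ι ι F) *ᵥ (v : ι → F) = c • ((x : Matrix ι ι F) *ᵥ (v : ι → F))
    rw [Subalgebra.coe_smul, Matrix.smul_mulVec])⟩
  have := @Module.finrank_mul_finrank F K W _ _ _ _ _ _ hst _ _ _ _
  rw [hK.finrank_eq] at this
  exact ⟨_, this.symm⟩

namespace SF

variable (S : SF ι F)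

theorem hermForm_eq {n q : ℕ} (S : SF (Fin n) F) (hσ : ∀ a, S.σ a = a ^ q) (hG : S.G = 1) :
    S.f = hermForm n F q := by
  funext u v
  simp [f, hG, gform, hermForm, dotProduct, hσ]

theorem isSolvable_GU32 [Fintype F] (hF : Fintype.card F = 2 ^ 2) (S : SF (Fin 3) F)
    (hσ : ∀ a, S.σ a = a ^ 2) (hG : S.G = 1) : Group.IsSolvable S.Isom := by
  have : H11.U.IsSq F 2 := ⟨hF⟩
  have := finite_GL (ι := Fin 3) (F := F)
  refine H8.isSolvable_of_card_dvd (a := 3) (b := 4) Nat.prime_two Nat.prime_three ?_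
  rw [Isom, S.hermForm_eq hσ hG]
  change Nat.card (GU 3 F 2) ∣ _
  rw [H11.U.card_GU]
  decide

theorem mult_fixed [Nonempty ι] {g : GL ι F} {c : F}
    (hc : ∀ u v, S.f ((g : Matrix ι ι F) *ᵥ u) ((g : Matrix ι ι F) *ᵥ v) = c * S.f u v) :
    S.σ c = c := by
  have h1 := S.st_mul_self_of_sim hc
  have h2 := congrArg S.st h1
  rw [st_mul, st_st, h1, st_smul_one, S.σσ] at h2
  obtain ⟨i⟩ := ‹Nonempty ι›
  simpa using congrFun (congrFun h2 i) i

theorem sim_le_isom_two [Nonempty ι] (hσ : ∀ a, S.σ a = a ^ 2) : similarityGroup S.f ≤ S.Isom := by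
  rintro g ⟨c, hc⟩ u v
  have h1 := S.mult_fixed hc
  rw [hσ, sq, mul_eq_left₀ c.ne_zero] at h1
  rw [h1] at hc
  exact (hc u v).trans (one_mul _)

/-- in characteristic two, self-adjoint elements of a field subalgebra are alternating -/
theorem f_self_of_field [Finite F] (h2 : (2 : F) = 0) (hA : ∀ v, S.f v v = 0)
    {K : Subalgebra F (Matrix ι ι F)} (hcomm : ∀ x ∈ K, ∀ y ∈ K, x * y = y * x)
    (hinv : ∀ x ∈ K, x ≠ 0 → ∃ y ∈ K, x * y = 1) (hC : S.Cl (K : Set (Matrix ι ι F)))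
    {s : Matrix ι ι F} (hs : s ∈ K) (hst : S.st s = s) (v : ι → F) : S.f (s *ᵥ v) v = 0 := by
  have := finite_matrix (ι := ι) (F := F)
  have hinj : ∀ x ∈ K, ∀ y ∈ K, x * x = y * y → x = y := fun x hx y hy h => by
    by_contra hne
    obtain ⟨z, -, hz⟩ := hinv (x - y) (sub_mem hx hy) (sub_ne_zero.2 hne)
    have h0 : (x - y) * (x - y) = 0 := by
      have : (2 : F) • (x * x - x * y) = 0 := by rw [h2, zero_smul]
      rw [← this, sub_mul, mul_sub, mul_sub, hcomm y hy x hx, ← h, two_smul]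
      abel
    exact hne (sub_eq_zero.1 (by rw [← mul_one (x - y), ← hz, ← mul_assoc, h0, zero_mul]))
  obtain ⟨l, hl⟩ := (Finite.injective_iff_surjective (f := fun x : K => x * x)).1
    (fun x y h => Subtype.ext (hinj x x.2 y y.2 (congrArg Subtype.val h))) ⟨s, hs⟩
  have hl' : (l : Matrix ι ι F) * l = s := congrArg Subtype.val hl
  have h3 : S.st l = l := hinj _ (hC _ l.2) _ l.2 (by rw [← st_mul, hl', hst])
  rw [← hl', ← mulVec_mulVec, adj_left, h3, hA]

theorem f_self_of_odd (h2 : (2 : F) ≠ 0) (hσ : ∀ a, S.σ a = a) (hA : ∀ v, S.f v v = 0)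
    {s : Matrix ι ι F} (hst : S.st s = s) (v : ι → F) : S.f (s *ᵥ v) v = 0 := by
  have h1 := S.adj_left s v v
  rw [hst, (S.isSymplecticForm hσ hA).skew v] at h1
  exact (mul_eq_zero.1 (show (2 : F) * _ = 0 by linear_combination h1)).resolve_left h2

theorem two_mul_dvd_card [Nonempty ι] {r : ℕ} {K : Subalgebra F (Matrix ι ι F)}
    (hK : IsFieldSubalgebra r K) (hst : ∀ x ∈ K, S.st x = x)
    (h0 : ∀ k ∈ K, ∀ v, S.f (k *ᵥ v) v = 0) : 2 * r ∣ Fintype.card ι := by
  obtain ⟨W, ⟨hW, hT⟩, hmax⟩ := exists_maximal_of_wellFoundedGT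
    (fun W : Submodule F (ι → F) => (∀ k ∈ K, ∀ w ∈ W, k *ᵥ w ∈ W) ∧ W ≤ S.perp W)
    ⟨⊥, fun k _ w hw => by rw [(Submodule.mem_bot F).1 hw, mulVec_zero]; exact zero_mem _, bot_le⟩
  have hp : ∀ k ∈ K, ∀ v ∈ S.perp W, k *ᵥ v ∈ S.perp W := fun k hk v hv =>
    S.mulVec_mem_perp (fun w hw => by rw [hst k hk]; exact hW k hk w hw) hv
  have heq : S.perp W = W := by
    refine le_antisymm (fun v hv => ?_) hT
    let U : Submodule F (ι → F) :=
      { carrier := {x | ∃ w ∈ W, ∃ k ∈ K, x = w + k *ᵥ v}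
        add_mem' := by
          rintro _ _ ⟨w, hw, k, hk, rfl⟩ ⟨w', hw', k', hk', rfl⟩
          exact ⟨_, add_mem hw hw', _, add_mem hk hk', by rw [add_mulVec]; abel⟩
        zero_mem' := ⟨0, zero_mem _, 0, zero_mem _, by simp⟩
        smul_mem' := by
          rintro c _ ⟨w, hw, k, hk, rfl⟩
          exact ⟨_, W.smul_mem c hw, _, K.smul_mem hk c, by rw [smul_mulVec, smul_add]⟩ }
    refine hmax (y := U) ⟨?_, ?_⟩ (fun w hw => ⟨w, hw, 0, zero_mem _, by simp⟩)
      ⟨0, zero_mem _, 1, one_mem _, by simp⟩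
    · rintro a ha _ ⟨w, hw, k, hk, rfl⟩
      exact ⟨_, hW a ha w hw, _, mul_mem ha hk, by rw [mulVec_add, mulVec_mulVec]⟩
    · rintro _ ⟨w, hw, k, hk, rfl⟩ _ ⟨w', hw', k', hk', rfl⟩
      rw [add_left, add_right, add_right, hT hw w' hw', hp k hk v hv w' hw',
        S.eq_zero_symm (hp k' hk' v hv w hw), adj_right, mulVec_mulVec, hst k' hk',
        h0 _ (mul_mem hk' hk)]
      simp
  have h1 := S.finrank_perp_add W
  rw [heq] at h1
  rw [← h1, ← two_mul]
  exact Nat.mul_dvd_mul_left 2 (dvd_finrank_of_inv hK hW)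

/-! ### Rank one matrices and frames -/

/-- the rank one matrix `x ↦ f x v • u` -/
def rk1 (u v : ι → F) : Matrix ι ι F := vecMulVec u ((S.G : Matrix ι ι F) *ᵥ (S.σ ∘ v))

theorem rk1_mulVec (u v x : ι → F) : S.rk1 u v *ᵥ x = S.f x v • u := by
  rw [rk1, vecMulVec_mulVec, f, gform, dotProduct_comm, op_smul_eq_smul]

theorem st_rk1 (u v : ι → F) : S.st (S.rk1 u v) = S.ε • S.rk1 v u :=
  (S.eq_st fun x y => by
    rw [smul_mulVec, rk1_mulVec, rk1_mulVec, smul_left, smul_right, smul_right, S.σε, S.symm y u]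
    ring).symm

theorem rk1_mul (u v u' v' : ι → F) : S.rk1 u v * S.rk1 u' v' = S.f u' v • S.rk1 u v' :=
  ext_mulVec fun x => by
    rw [← mulVec_mulVec, smul_mulVec, rk1_mulVec, rk1_mulVec, rk1_mulVec, smul_left, smul_smul,
      mul_comm]

theorem cj_rk1 {g : GL ι F} (hg : g ∈ S.Isom) (u v : ι → F) :
    cj g (S.rk1 u v) = S.rk1 ((g : Matrix ι ι F) *ᵥ u) ((g : Matrix ι ι F) *ᵥ v) := by
  rw [cj_eq_iff]
  exact ext_mulVec fun x => by
    rw [← mulVec_mulVec, ← mulVec_mulVec, rk1_mulVec, rk1_mulVec, mulVec_smul, S.mem_isom.1 hg]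

theorem rk1_smul (a b : F) (u v : ι → F) : S.rk1 (a • u) (b • v) = (a * S.σ b) • S.rk1 u v :=
  ext_mulVec fun x => by
    rw [smul_mulVec, rk1_mulVec, rk1_mulVec, smul_right, smul_smul, smul_smul]
    congr 1; ring

theorem im_smul_rk1 {c : F} {u v : ι → F} : im (c • S.rk1 u v) ≤ F ∙ u := by
  intro x hx
  obtain ⟨w, rfl⟩ := mem_im.1 hx
  rw [smul_mulVec, rk1_mulVec, smul_smul]
  exact Submodule.smul_mem _ _ (Submodule.mem_span_singleton_self u)

theorem not_scalar_of_im_le (hn : 2 ≤ Fintype.card ι) {x : Matrix ι ι F} (h0 : x ≠ 0) {u : ι → F}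
    (h : im x ≤ F ∙ u) : ¬ ∃ c : F, x = c • (1 : Matrix ι ι F) := by
  rintro ⟨c, rfl⟩
  have hc : c ≠ 0 := by rintro rfl; exact h0 (zero_smul _ _)
  have h1 : (⊤ : Submodule F (ι → F)) ≤ F ∙ u := fun y _ => h (mem_im.2 ⟨c⁻¹ • y, by
    rw [smul_mulVec, one_mulVec, smul_smul, mul_inv_cancel₀ hc, one_smul]⟩)
  have h2 := (Submodule.finrank_mono h1).trans (finrank_span_le_card ({u} : Set (ι → F)))
  rw [finrank_top, Module.finrank_fintype_fun_eq_card] at h2
  simp at h2
  omega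

/-- a set of vectors of fixed non-zero norm, pairwise orthogonal or proportional -/
structure PreFrame (H : Subgroup (GL ι F)) (T : Set (ι → F)) (d : F) : Prop where
  ε : S.ε = 1
  ne : d ≠ 0
  norm : ∀ v ∈ T, S.f v v = d
  pair : ∀ v ∈ T, ∀ w ∈ T, S.f w v = 0 ∨ ∃ a : F, w = a • v
  le : H ≤ S.Isom
  inv : ∀ h ∈ H, ∀ v ∈ T, (h : Matrix ι ι F) *ᵥ v ∈ T
  nonempty : T.Nonempty

theorem PreFrame.aux {S : SF ι F} {H : Subgroup (GL ι F)} {T : Set (ι → F)} {d : F}
    (h : S.PreFrame H T d) :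
    let X : Set (Matrix ι ι F) := {x | x = 0 ∨ ∃ v ∈ T, x = d⁻¹ • S.rk1 v v}
    (∀ e ∈ X, e * e = e) ∧ (∀ e ∈ X, S.st e = e) ∧ (∀ e ∈ X, ∀ f ∈ X, e * f = f * e) ∧
      (∀ e ∈ X, ∀ f ∈ X, e * f ∈ X) ∧ Nrm H X ∧ ∀ v ∈ T, d⁻¹ • S.rk1 v v ≠ 0 := by
  intro X
  have hid : ∀ v ∈ T, (d⁻¹ • S.rk1 v v) * (d⁻¹ • S.rk1 v v) = d⁻¹ • S.rk1 v v := fun v hv => by
    rw [smul_mul_smul_comm, rk1_mul, h.norm v hv, smul_smul, inv_mul_cancel_right₀ h.ne]
  have key : ∀ v ∈ T, ∀ w ∈ T, S.rk1 w w = S.rk1 v v ∨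
      (S.rk1 v v * S.rk1 w w = 0 ∧ S.rk1 w w * S.rk1 v v = 0) := fun v hv w hw => by
    rcases h.pair v hv w hw with h0 | ⟨a, rfl⟩
    · right; rw [rk1_mul, rk1_mul, h0, S.eq_zero_symm h0, zero_smul, zero_smul]; exact ⟨rfl, rfl⟩
    · left
      have := h.norm _ hw
      rw [smul_left, smul_right, h.norm v hv, ← mul_assoc, mul_eq_right₀ h.ne] at this
      rw [rk1_smul, this, one_smul]
  refine ⟨?_, ?_, ?_, ?_, ?_, fun v hv h0 => ?_⟩
  · rintro _ (rfl | ⟨v, hv, rfl⟩)
    exacts [mul_zero _, hid v hv]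
  · rintro _ (rfl | ⟨v, hv, rfl⟩)
    · exact S.st_zero
    · have := S.symm v v
      rw [h.ε, one_mul, h.norm v hv] at this
      rw [st_smul, st_rk1, h.ε, one_smul, map_inv₀, ← this]
  · rintro _ (rfl | ⟨v, hv, rfl⟩) _ (rfl | ⟨w, hw, rfl⟩)
    · rfl
    · rw [zero_mul, mul_zero]
    · rw [zero_mul, mul_zero]
    · rcases key v hv w hw with h1 | h1
      · rw [h1]
      · rw [smul_mul_smul_comm, smul_mul_smul_comm, h1.1, h1.2]
  · rintro _ (rfl | ⟨v, hv, rfl⟩) _ (rfl | ⟨w, hw, rfl⟩)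
    · exact Or.inl (mul_zero _)
    · exact Or.inl (zero_mul _)
    · exact Or.inl (mul_zero _)
    · rcases key v hv w hw with h1 | h1
      · rw [h1, hid v hv]; exact Or.inr ⟨v, hv, rfl⟩
      · left; rw [smul_mul_smul_comm, h1.1, smul_zero]
  · rintro g hg _ (rfl | ⟨v, hv, rfl⟩)
    · exact Or.inl (map_zero _)
    · exact Or.inr ⟨_, h.inv g hg v hv, by rw [map_smul, S.cj_rk1 (h.le hg)]⟩
  · have := congrArg (· *ᵥ v) h0
    simp only [smul_mulVec, rk1_mulVec, h.norm v hv, smul_smul, inv_mul_cancel₀ h.ne, one_smul,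
      zero_mulVec] at this
    exact h.ne (by rw [← h.norm v hv, this, zero_left])

theorem PreFrame.not_prim {S : SF ι F} {H : Subgroup (GL ι F)} {T : Set (ι → F)} {d : F}
    (h : S.PreFrame H T d) (hn : 2 ≤ Fintype.card ι) : ¬ S.Prim H := by
  obtain ⟨-, h2, h3, -, h5, h6⟩ := h.aux
  obtain ⟨v, hv⟩ := h.nonempty
  exact S.not_prim_of_set _ h3 h5 (fun x hx => by rw [h2 x hx]; exact hx) (Or.inr ⟨v, hv, rfl⟩)
    (not_scalar_of_im_le hn (h6 v hv) S.im_smul_rk1)

theorem PreFrame.exists_frame [Finite F] {S : SF ι F} {H : Subgroup (GL ι F)} {T : Set (ι → F)}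
    {d : F} (h : S.PreFrame H T d) (hn : 2 ≤ Fintype.card ι) (hI : Irr H) :
    ∃ D : Fin (Fintype.card ι) → Submodule F (ι → F), IsNondegenerateMDecomposition S.f 1 D ∧
      H ≤ decompositionStabilizer D ∧ ∀ i, ∃ v ∈ T, D i = F ∙ v := by
  obtain ⟨h1, h2, h3, h4, h5, h6⟩ := h.aux
  obtain ⟨v, hv⟩ := h.nonempty
  obtain ⟨t, k, D, hD, hle, -, hi⟩ := S.decomp_of_idem hI _ h1 h2 h3 h4 h5 (Or.inr ⟨v, hv, rfl⟩)
    (h6 v hv) (fun h1 => not_scalar_of_im_le hn (h6 v hv) S.im_smul_rk1 ⟨1, by rw [h1, one_smul]⟩)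
  have hk := hD.decomp.pos
  have key : ∀ i, k = 1 ∧ ∃ v ∈ T, D i = F ∙ v := fun i => by
    have h7 := hD.decomp.finrank_eq i
    obtain ⟨_, rfl | ⟨w, hw, rfl⟩, he⟩ := hi i
    · rw [he, im_eq_bot.2 rfl, finrank_bot] at h7; omega
    · have h8 : D i ≤ F ∙ w := he ▸ S.im_smul_rk1
      have h9 : finrank F (F ∙ w) ≤ 1 := (finrank_span_le_card ({w} : Set (ι → F))).trans (by simp)
      have h10 := Submodule.finrank_mono h8
      exact ⟨by omega, w, hw, Submodule.eq_of_le_of_finrank_le h8 (by omega)⟩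
  obtain rfl := (key ⟨0, by have := hD.decomp.two_le; omega⟩).1
  have h11 := IsMDecomposition.mul_eq_card hD.decomp
  rw [mul_one] at h11
  subst h11
  exact ⟨D, hD, hle, fun i => (key i).2⟩

theorem pair_two [Fintype F] (hF : Fintype.card F = 2 ^ 2) (hσ : ∀ a, S.σ a = a ^ 2) (hε : S.ε = 1)
    {W : Submodule F (ι → F)} (hW : IsNondegenerateOn S.f W) (h2 : finrank F W = 2) {v w : ι → F}
    (hv : v ∈ W) (hw : w ∈ W) (h1 : S.f v v = 1) (h1' : S.f w w = 1) :
    S.f w v = 0 ∨ ∃ a : F, w = a • v := by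
  by_cases ha : S.f w v = 0
  · exact Or.inl ha
  refine Or.inr ⟨S.f w v, ?_⟩
  by_contra hne
  set u := w - S.f w v • v with hu
  have huv : S.f u v = 0 := by rw [hu, sub_left, smul_left, h1, mul_one, sub_self]
  have h3 : S.f w v * S.σ (S.f w v) = 1 := by
    have := FiniteField.pow_card_sub_one_eq_one _ ha
    rw [hF] at this
    rw [hσ, ← this]; ring
  have huu : S.f u u = 0 := by
    conv_lhs => rhs; rw [hu]
    rw [sub_right, smul_right, huv, hu, sub_left, smul_left, h1', S.symm w v, hε, one_mul, h3]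
    simp
  have hu0 : u ≠ 0 := sub_ne_zero.2 hne
  have huW : u ∈ W := sub_mem hw (W.smul_mem _ hv)
  have hli : LinearIndependent F ![v, u] := by
    rw [LinearIndependent.pair_iff]
    intro s t hst
    have h4 := congrArg (S.f · v) hst
    simp only [add_left, smul_left, h1, huv, zero_left, mul_one, mul_zero, add_zero] at h4
    rw [h4, zero_smul, zero_add] at hst
    exact ⟨h4, (smul_eq_zero.1 hst).resolve_right hu0⟩
  have hsp : Submodule.span F (Set.range ![v, u]) = W := Submodule.eq_of_le_of_finrank_le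
    (Submodule.span_le.2 (by rintro _ ⟨i, rfl⟩; fin_cases i; exacts [hv, huW]))
    (by rw [finrank_span_eq_card hli, h2]; simp)
  obtain ⟨x, hx, hx0⟩ := (hW u huW hu0).1
  rw [← hsp, Matrix.range_cons_cons_empty, Submodule.mem_span_pair] at hx
  obtain ⟨s, t, rfl⟩ := hx
  exact hx0 (by rw [add_left, smul_left, smul_left, huu, S.eq_zero_symm huv]; simp)

theorem exists_norm_one [Finite F] (hne : S.σ ≠ RingHom.id F) (hε : S.ε = 1)
    {W : Submodule F (ι → F)} (hW : IsNondegenerateOn S.f W) (h0 : W ≠ ⊥) :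
    ∃ v ∈ W, S.f v v = 1 := by
  obtain ⟨x, hx, hx0⟩ := Submodule.exists_mem_ne_zero_of_ne_bot h0
  obtain ⟨y, hy, hxy⟩ := (hW x hx hx0).1
  obtain ⟨z, hz, hzz⟩ := exists_nonisotropic (exists_trace_one hne S.σσ) S.B
    (fun x y => by rw [B_apply, B_apply, S.symm y x, hε, one_mul]) W hx hy hxy
  rw [B_apply] at hzz
  have h1 := S.symm z z
  rw [hε, one_mul] at h1
  obtain ⟨a, ha⟩ := exists_norm_eq hne S.σσ (t := (S.f z z)⁻¹) (by rw [map_inv₀, ← h1])
  exact ⟨a • z, W.smul_mem a hz, by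
    rw [smul_left, smul_right, ← mul_assoc, mul_comm a, ha, inv_mul_cancel₀ hzz]⟩

theorem nondeg_top : IsNondegenerateOn S.f ⊤ := by
  rw [isNondegenerateOn_iff, perp_top, inf_bot_eq]

/-- G10: `GU_2(2)` stabilises a frame -/
theorem not_prim_GU22 [Fintype F] (hF : Fintype.card F = 2 ^ 2) (S : SF (Fin 2) F)
    (hσ : ∀ a, S.σ a = a ^ 2) (hε : S.ε = 1) : ¬ S.Prim (similarityGroup S.f) := by
  obtain ⟨v, -, hv⟩ := S.exists_norm_one (pow_ne_id hF hσ) hε S.nondeg_top top_ne_bot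
  exact PreFrame.not_prim (T := {v | S.f v v = 1}) ⟨hε, one_ne_zero, fun _ h => h,
    fun v hv w hw => S.pair_two hF hσ hε S.nondeg_top (by simp) trivial trivial hv hw,
    S.sim_le_isom_two hσ, fun g hg v hv => (S.sim_le_isom_two hσ hg v v).trans hv, ⟨v, hv⟩⟩
    (by simp)

/-- G10: `O_3(3)` stabilises a frame -/
theorem not_prim_O33 [Fintype F] (hF : Fintype.card F = 3) (S : SF (Fin 3) F)
    (hσ : ∀ a, S.σ a = a) (hε : S.ε = 1) : ¬ S.Prim (similarityGroup S.f) := by
  have hσ' : S.σ = RingHom.id F := RingHom.ext hσ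
  have h2 : (2 : F) ≠ 0 := two_ne_zero_iff_odd_card.2 (by rw [hF]; decide)
  have hd : (S.G : Matrix (Fin 3) (Fin 3) F).det ≠ 0 := S.G.det_ne_zero
  have hsym : ∀ u v, S.f v u = S.f u v := fun u v => by rw [S.symm, hε, hσ, one_mul]
  have hle : similarityGroup S.f ≤ S.Isom := fun g hg => by
    obtain ⟨c, hc⟩ := hg
    have h1 : (g : Matrix (Fin 3) (Fin 3) F)ᵀ * (S.G : Matrix (Fin 3) (Fin 3) F) *
        (g : Matrix (Fin 3) (Fin 3) F) = (c : F) • (S.G : Matrix (Fin 3) (Fin 3) F) :=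
      gform_inj (σ := RingHom.id F) fun u v => by
        have := hc u v
        rw [f, hσ', gform_mulVec, ← gform_smul_mat] at this
        exact this
    have h3 := congrArg det h1
    rw [det_mul, det_mul, det_transpose, det_smul, mul_right_comm,
      sq_eq_one_of_card_three hF g.det_ne_zero, Fintype.card_fin, pow_succ, sq,
      sq_eq_one_of_card_three hF c.ne_zero, one_mul, one_mul, eq_comm, mul_eq_right₀ hd] at h3
    intro u v
    exact (hc u v).trans (by rw [h3, one_mul])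
  refine PreFrame.not_prim (T := {v | S.f v v = (S.G : Matrix (Fin 3) (Fin 3) F).det})
    ⟨hε, hd, fun _ h => h, fun v hv w hw => ?_, hle, fun g hg v hv => (hle hg v v).trans hv, ?_⟩
    (by simp)
  · set d := (S.G : Matrix (Fin 3) (Fin 3) F).det
    have hv : S.f v v = d := hv
    have hw : S.f w w = d := hw
    have hdd := sq_eq_one_of_card_three hF hd
    by_cases ha : S.f w v = 0
    · exact Or.inl ha
    refine Or.inr ⟨S.f w v * d, ?_⟩
    by_contra hne
    set u := w - (S.f w v * d) • v with hu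
    have huv : S.f u v = 0 := by rw [hu, sub_left, smul_left, hv, mul_assoc, hdd, mul_one, sub_self]
    have huu : S.f u u = 0 := by
      conv_lhs => rhs; rw [hu]
      rw [sub_right, smul_right, huv, hu, sub_left, smul_left, hw, hsym w v]
      linear_combination -d * sq_eq_one_of_card_three hF ha
    obtain ⟨x, hx⟩ := S.exists_ne_right (sub_ne_zero.2 hne)
    rw [← hu] at hx
    let B : Matrix (Fin 3) (Fin 3) F := (Matrix.of ![v, u, x])ᵀ
    have hB : Bᵀ * (S.G : Matrix (Fin 3) (Fin 3) F) * B = !![d, 0, S.f v x; 0, 0, S.f u x; S.f v x, S.f u x, S.f x x] := by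
      have : ∀ i j, (Bᵀ * (S.G : Matrix (Fin 3) (Fin 3) F) * B) i j =
          S.f (![v, u, x] i) (![v, u, x] j) := fun i j => by
        rw [← gform_single (RingHom.id F) (Bᵀ * (S.G : Matrix (Fin 3) (Fin 3) F) * B)]
        refine (gform_mulVec (RingHom.id F) _ B B _ _).symm.trans ?_
        rw [mulVec_single_one, mulVec_single_one, f, hσ']
        rfl
      ext i j
      rw [this]
      fin_cases i <;> fin_cases j <;> simp [hv, huv, huu, hsym u v, hsym v x, hsym u x]
    have h3 : B.det * d * B.det = -d * (S.f u x * S.f u x) := by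
      have := congrArg det hB
      rw [det_mul, det_mul, det_transpose] at this
      rw [this, det_fin_three]
      simp [mul_assoc]
    have h4 := sq_eq_one_of_card_three hF hx
    by_cases hB0 : B.det = 0
    · exact hd (by rw [hB0] at h3; linear_combination h3 - d * h4)
    · have h5 := sq_eq_one_of_card_three hF hB0
      exact mul_ne_zero h2 hd (by linear_combination h3 - d * h4 - d * h5)
  · let B : LinearMap.BilinForm F (Fin 3 → F) := LinearMap.mk₂ F S.f S.add_left S.smul_left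
      S.add_right fun c x y => by rw [smul_right, hσ]; rfl
    have hns : ¬ IsSquare (-1 : F) := by
      rw [FiniteField.isSquare_neg_one_iff, hF]; decide
    obtain ⟨b, h1, h3, -⟩ := exists_basis_one_or_nonsquare h2 B (fun x y => hsym y x)
      (fun x hx => S.eq_zero_of_left hx) (n := 2) (by simp) (-1) hns
    have h00 : S.f (b 0) (b 0) = 1 := h3 0 (by decide)
    have h11 : S.f (b 1) (b 1) = 1 := h3 1 (by decide)
    have h01 : S.f (b 0) (b 1) = 0 := h1 0 1 (by decide)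
    rcases mul_self_eq_one_iff.1 (sq_eq_one_of_card_three hF hd) with h | h
    · exact ⟨b 0, h00.trans h.symm⟩
    · refine ⟨b 0 + b 1, ?_⟩
      change S.f _ _ = _
      rw [add_left, add_right, add_right, h00, h11, hsym (b 0), h01, h]
      have := FiniteField.cast_card_eq_zero F
      rw [hF] at this
      linear_combination this

end SF

end H28.AF
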