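import Cfsg.Agent.Lib.AschF.Small

/-!
Aschbacher's theorem for symplectic groups.
-/

set_option autoImplicit false
set_option linter.unusedSectionVars false

namespace H28.AF

open Matrix Cfsg Cfsg.Geo H10.Asch Module
open scoped MatrixGroups Kronecker commutatorElement

variable {ι : Type} [Fintype ι] [DecidableEq ι] {F : Type*} [Field F]

theorem comps_nrmS {t k : ℕ} {H : Subgroup (GL ι F)} {L : Fin t → Subgroup (GL ι F)}
    {ψ : Fin t → (Matrix (Fin k) (Fin k) F →ₐ[F] Matrix ι ι F)} {e : ι ≃ (Fin t → Fin k)}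
    {P : GL ι F} (h : Comps H L ψ e P) (i : Fin t) : NrmS (⨆ j, L j) (L i) := by
  rw [nrmS_iff_le_normalizer]
  refine iSup_le fun j => nrmS_iff_le_normalizer.1 ?_
  by_cases hj : j = i
  · subst hj; exact nrmS_self _
  · intro g hg x hx
    rw [h.comm j i hj g hg x hx, mul_inv_cancel_right]; exact hx

/-- the fixed field of a ring endomorphism -/
theorem eqLocus_ne_top {σ : F →+* F} (h : σ ≠ RingHom.id F) :
    RingHom.eqLocusField σ (RingHom.id F) ≠ ⊤ := fun h1 =>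
  h (RingHom.ext fun a => (h1 ▸ Subfield.mem_top a : a ∈ RingHom.eqLocusField σ (RingHom.id F)))

namespace SF

variable (S : SF ι F)

/-- stabiliser of a totally isotropic subspace -/
def C1t (H : Subgroup (GL ι F)) : Prop :=
  ∃ W : Submodule F (ι → F), W ≠ ⊥ ∧ IsTotallySingularFor S.f W ∧ H ≤ subspaceStabilizer W

/-- stabiliser of a small non-degenerate subspace -/
def C1n (H : Subgroup (GL ι F)) : Prop :=
  ∃ W : Submodule F (ι → F), W ≠ ⊥ ∧ IsNondegenerateOn S.f W ∧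
    2 * finrank F W < Fintype.card ι ∧ H ≤ subspaceStabilizer W

/-- stabiliser of a non-degenerate decomposition -/
def C2n (H : Subgroup (GL ι F)) : Prop :=
  ∃ (t k : ℕ) (D : Fin t → Submodule F (ι → F)), IsNondegenerateMDecomposition S.f k D ∧
    H ≤ decompositionStabilizer D

/-- stabiliser of a pair of totally isotropic subspaces -/
def C2t (H : Subgroup (GL ι F)) : Prop :=
  ∃ (k : ℕ) (D : Fin 2 → Submodule F (ι → F)), 2 * k = Fintype.card ι ∧ IsMDecomposition k D ∧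
    (∀ i, IsTotallySingularFor S.f (D i)) ∧ H ≤ decompositionStabilizer D

theorem red_cases {H : Subgroup (GL ι F)} (hH : H ≤ similarityGroup S.f) (h : ¬ Irr H) :
    S.C1t H ∨ S.C1n H ∨ S.C2n H := by
  obtain ⟨W, h0, h1, hI, -, hW | hW⟩ := S.reducible hH h
  · exact Or.inl ⟨W, h0, hW, hI.le⟩
  · rcases S.small_or_halves hH h0 h1 hI hW with ⟨U, a, b, c, d⟩ | ⟨k, D, -, a, b⟩
    · exact Or.inr (Or.inl ⟨U, a, b, c, d.le⟩)
    · exact Or.inr (Or.inr ⟨2, k, D, a, b⟩)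

theorem not_prim_cases [Finite F] [Nonempty ι] {H : Subgroup (GL ι F)}
    (hH : H ≤ similarityGroup S.f) (hI : Irr H) (hP : ¬ S.Prim H) :
    S.C2n H ∨ (∃ e, e * e = e ∧ S.st e = 1 - e ∧ ∀ h ∈ H, cj h e = e ∨ cj h e = 1 - e) ∨
    ∃ (r : ℕ) (K : Subalgebra F (Matrix ι ι F)), r.Prime ∧ IsFieldSubalgebra r K ∧
      Nrm H (K : Set (Matrix ι ι F)) ∧ S.Cl (K : Set (Matrix ι ι F)) := by
  simp only [Prim, not_forall] at hP
  obtain ⟨K, hcomm, hN, hC, x, hx, hns⟩ := hP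
  rcases S.comm_cases hH hI hcomm hN hC with ⟨t, k, D, a, b, -⟩ | ⟨e, -, h⟩ | h
  · exact Or.inl ⟨t, k, D, a, b⟩
  · exact Or.inr (Or.inl ⟨e, h⟩)
  · exact Or.inr (Or.inr (S.exists_prime_subfield hcomm h hN hC fun h => hns (h x hx)))

theorem c2t_of_idem [Nonempty ι] {H : Subgroup (GL ι F)} (hI : Irr H) {e : Matrix ι ι F}
    (he : e * e = e) (hs : S.st e = 1 - e) (hN : ∀ h ∈ H, cj h e = e ∨ cj h e = 1 - e) :
    S.C2t H := by
  obtain ⟨k, h⟩ := S.pair_of_idem hI he hs hN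
  exact ⟨k, _, h⟩

theorem Prim.tens_or_prim [Finite F] [Nonempty ι] {S : SF ι F} {H : Subgroup (GL ι F)}
    (hP : S.Prim H) (hH : H ≤ similarityGroup S.f) (hI : Irr H) :
    (∃ (n₁ n₂ : ℕ) (e : ι ≃ Fin n₁ × Fin n₂) (P : GL ι F) (S₁ : SF (Fin n₁) F) (S₂ : SF (Fin n₂) F),
      2 ≤ n₁ ∧ 2 ≤ n₂ ∧ IsTens S H e P S₁ S₂ ∧ (S.σ ≠ RingHom.id F → S₁.ε = 1)) ∨
    H10.Asch.Prim H := by
  rcases hI.cen_or_tensor_or_prim with ⟨N, hN, hn, x, hx, hns⟩ |
    ⟨N, hN, hn, n₁, n₂, ψ, e, P, h₁, h₂, hψ, hψ'⟩ | h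
  · obtain ⟨c, hc⟩ := hP _ (cen_comm _) (nrm_spanA hn).cen (S.cl_spanA (hN.trans hH)).cen x hx
    exact absurd hc (hns c)
  · obtain rfl : ψ = psiL e P := AlgHom.ext hψ'
    have : Nonempty (Fin n₁) := ⟨⟨0, by omega⟩⟩
    have : Nonempty (Fin n₂) := ⟨⟨0, by omega⟩⟩
    obtain ⟨S₁, S₂, hT⟩ := S.exists_isTens (H := H) e P (hψ ▸ nrm_spanA hn)
      (hψ ▸ S.cl_spanA (hN.trans hH))
    exact Or.inl ⟨n₁, n₂, e, P, S₁, S₂, h₁, h₂, hT⟩
  · exact Or.inr h

/-- field extension subgroups of symplectic type -/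
def SpC3 (H : Subgroup (GL ι F)) : Prop :=
  ∃ (r : ℕ) (K : Subalgebra F (Matrix ι ι F)), r.Prime ∧ 2 * r ∣ Fintype.card ι ∧
    IsFieldSubalgebra r K ∧ IsSelfAdjointFor S.f K ∧ (∀ k ∈ K, ∀ v, S.f (k *ᵥ v) v = 0) ∧
    H ≤ subalgebraNormalizer K

/-- field extension subgroups of unitary type -/
def SpC3u (H : Subgroup (GL ι F)) : Prop :=
  ∃ K : Subalgebra F (Matrix ι ι F), IsFieldSubalgebra 2 K ∧ IsAdjointClosedFor S.f K ∧
    ¬ IsSelfAdjointFor S.f K ∧ H ≤ subalgebraNormalizer K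

/-- tensor products -/
def SpC4 [Fintype F] (H : Subgroup (GL ι F)) : Prop :=
  ∃ (n₁ n₂ : ℕ) (e : ι ≃ Fin n₁ × Fin n₂) (P : GL ι F) (S₁ : SF (Fin n₁) F) (S₂ : SF (Fin n₂) F),
    2 ≤ n₁ ∧ 3 ≤ n₂ ∧ ¬ (Fintype.card F = 3 ∧ n₂ = 3) ∧ IsTens S H e P S₁ S₂ ∧ S₁.ε = -1 ∧ S₂.ε = 1

/-- tensor powers -/
def SpC7 [Fintype F] (H : Subgroup (GL ι F)) : Prop :=
  ∃ (k t : ℕ) (e : ι ≃ (Fin t → Fin k)) (P : GL ι F) (T : SF (Fin k) F), Odd t ∧ 3 ≤ t ∧ 2 ≤ k ∧
    ¬ (Fintype.card F = 3 ∧ k = 2) ∧ IsWr S H e P (fun _ => T) ∧ T.ε = -1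

/-- orthogonal groups in characteristic two -/
def SpC8 (H : Subgroup (GL ι F)) : Prop := ∃ Q, S.IsQ Q ∧ FixQ H Q

theorem sp_comm [Fintype F] [Nonempty ι] (hσ : ∀ a, S.σ a = a) (hA : ∀ v, S.f v v = 0)
    {H : Subgroup (GL ι F)} (hH : H ≤ S.Isom) (hI : Irr H) (hP : ¬ S.Prim H) :
    S.C2n H ∨ ((2 : F) ≠ 0 ∧ S.C2t H) ∨ S.SpC3 H ∨ ((2 : F) ≠ 0 ∧ S.SpC3u H) ∨
      ((2 : F) = 0 ∧ S.SpC8 H) := by
  rcases S.not_prim_cases (hH.trans S.isom_le_sim) hI hP with h | ⟨e, he, hs, hN⟩ |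
    ⟨r, K, hr, hK, hN, hC⟩
  · exact Or.inl h
  · by_cases h2 : (2 : F) = 0
    · refine Or.inr (Or.inr (Or.inr (Or.inr ⟨h2, _, S.isQ_of_add_st h2 hσ (a := e)
        (by rw [hs, add_sub_cancel]), S.fixQ_of_cj hH fun h hh v => ?_⟩)))
      rcases hN h hh with h1 | h1 <;> rw [h1]
      · rw [sub_self, zero_mulVec, zero_left]
      · rw [sub_sub, ← two_smul F, h2, zero_smul, sub_zero, one_mulVec, hA]
    · exact Or.inr (Or.inl ⟨h2, S.c2t_of_idem hI he hs hN⟩)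
  · by_cases hsa : ∀ x ∈ K, S.st x = x
    · have h0 : ∀ k ∈ K, ∀ v, S.f (k *ᵥ v) v = 0 := fun k hk v => by
        by_cases h2 : (2 : F) = 0
        · exact S.f_self_of_field h2 hA hK.comm hK.inv hC hk (hsa k hk) v
        · exact S.f_self_of_odd h2 hσ hA (hsa k hk) v
      exact Or.inr (Or.inr (Or.inl ⟨r, K, hr, S.two_mul_dvd_card hK hsa h0, hK,
        S.isSelfAdjointFor_iff.2 hsa, h0, hN.le_subalgebraNormalizer⟩))
    · obtain rfl : r = 2 := hr.eq_two_or_odd'.resolve_right fun h =>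
        hsa (S.selfAdjoint_of_odd hσ h hK hC)
      by_cases h2 : (2 : F) = 0
      · push Not at hsa
        obtain ⟨x, hx, hxs⟩ := hsa
        have hneg : ∀ y : Matrix ι ι F, y + y = 0 := fun y => by rw [← two_smul F, h2, zero_smul]
        have hy : x + S.st x ∈ K := add_mem hx (hC x hx)
        obtain ⟨z, hz, hyz⟩ := hK.inv _ hy fun h => hxs (by
          rw [← add_zero (S.st x), ← hneg x, ← add_assoc, add_comm (S.st x) x, h, zero_add])
        have hzs : S.st z = z := by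
          have := congrArg S.st hyz
          rw [st_mul, st_add, st_st, st_one, add_comm (S.st x)] at this
          rw [← mul_one (S.st z), ← hyz, ← mul_assoc, this, one_mul]
        have hw : x * z + S.st (x * z) = 1 := by
          rw [st_mul, hzs, hK.comm z hz _ (hC x hx), ← add_mul, hyz]
        refine Or.inr (Or.inr (Or.inr (Or.inr ⟨h2, _, S.isQ_of_add_st h2 hσ hw,
          S.fixQ_of_cj hH fun h hh v => S.f_self_of_field h2 hA hK.comm hK.inv hC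
            (sub_mem (hN h hh _ (mul_mem hx hz)) (mul_mem hx hz)) ?_ v⟩)))
        rw [st_sub, S.st_cj (hH hh), eq_sub_of_add_eq' hw, map_sub, map_one, ← sub_eq_zero,
          ← neg_eq_zero, ← hneg (cj h (x * z) - x * z)]
        abel
      · exact Or.inr (Or.inr (Or.inr (Or.inl ⟨h2, K, hK, S.isAdjointClosedFor_iff.2 hC,
          fun h => hsa (S.isSelfAdjointFor_iff.1 h), hN.le_subalgebraNormalizer⟩)))

theorem sp_tens [Fintype F] (hσ : ∀ a, S.σ a = a) (hε : S.ε = -1) {H : Subgroup (GL ι F)}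
    (hH : H ≤ S.Isom) (hI : Irr H) (hP : S.Prim H) {n₁ n₂ : ℕ} {e : ι ≃ Fin n₁ × Fin n₂}
    {P : GL ι F} {S₁ : SF (Fin n₁) F} {S₂ : SF (Fin n₂) F} (h₁ : 2 ≤ n₁) (h₂ : 2 ≤ n₂)
    (T : IsTens S H e P S₁ S₂) : ((2 : F) ≠ 0 ∧ S.SpC4 H) ∨ ((2 : F) = 0 ∧ S.SpC8 H) := by
  by_cases h2 : (2 : F) = 0
  · obtain ⟨-, -, Q, a, b, -⟩ := T.exists_fixQ h2 hσ hH hI (by simpa) (by simpa)
    exact Or.inr ⟨h2, Q, a, b⟩
  refine Or.inl ⟨h2, ?_⟩
  wlog h : S₁.ε = -1 ∧ S₂.ε = 1 generalizing n₁ n₂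
  · refine this h₂ h₁ T.swap ?_
    have := T.ε
    have h3 : (1 : F) ≠ -1 := fun h => h2 (by linear_combination h)
    rcases S₁.hε with a | a <;> rcases S₂.hε with b | b <;> simp_all
  have : Nonempty (Fin n₁) := ⟨⟨0, by omega⟩⟩
  have : Nonempty (Fin n₂) := ⟨⟨0, by omega⟩⟩
  have hP₂ := T.swap.prim_left (hH.trans S.isom_le_sim) hP
  have hσ₂ : ∀ a, S₂.σ a = a := by rw [T.σ₂]; exact hσ
  refine ⟨n₁, n₂, e, P, S₁, S₂, h₁, ?_, ?_, T, h⟩
  · by_contra h3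
    obtain rfl : n₂ = 2 := by omega
    exact S₂.not_prim_two h2 hσ₂ h.2 hP₂
  · rintro ⟨h3, rfl⟩
    exact S₂.not_prim_O33 h3 hσ₂ h.2 hP₂

theorem sp_comps [Fintype F] (hσ : ∀ a, S.σ a = a) (hε : S.ε = -1) {H : Subgroup (GL ι F)}
    (hH : H ≤ S.Isom) (hI : Irr H) {t k : ℕ} {L : Fin t → Subgroup (GL ι F)}
    {ψ : Fin t → (Matrix (Fin k) (Fin k) F →ₐ[F] Matrix ι ι F)} {e : ι ≃ (Fin t → Fin k)}
    {P : GL ι F} (h : Comps H L ψ e P) : ((2 : F) ≠ 0 ∧ S.SpC7 H) ∨ ((2 : F) = 0 ∧ S.SpC8 H) := by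
  have ht := h.two_le_t
  have hk := h.two_le_k
  have : NeZero t := ⟨by omega⟩
  have : NeZero k := ⟨by omega⟩
  obtain ⟨T, W, -⟩ := S.isWr_of_comps (hH.trans S.isom_le_sim) h
  by_cases h2 : (2 : F) = 0
  · obtain ⟨m, e', P', hψ⟩ := exists_tr_kron (ψ 0)
    have hψ' : (psiL e' P').range = spanA F (L 0) := by
      rw [← h.range, show ψ 0 = psiL e' P' from AlgHom.ext hψ]
    have hc : k ^ t = k * m := by rw [← W.card_eq, Fintype.card_congr e']; simp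
    have hm : 2 ≤ m := by
      have : k ^ 2 ≤ k ^ t := Nat.pow_le_pow_right (by omega) ht
      by_contra hm
      interval_cases m <;> nlinarith
    have : Nonempty (Fin m) := ⟨⟨0, by omega⟩⟩
    have hN := h.minN_iSup.le.trans hH
    obtain ⟨S₁, S₂, T', -⟩ := S.exists_isTens (H := ⨆ j, L j) e' P'
      (hψ' ▸ nrm_spanA (comps_nrmS h 0)) (hψ' ▸ S.cl_spanA (((h.le 0).trans hH).trans S.isom_le_sim))
    have hIN := irr_of_spanA_eq_top h.span
    obtain ⟨-, -, Q, a, b, -⟩ := T'.exists_fixQ h2 hσ hN hIN (by simpa) (by simpa)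
    exact Or.inr ⟨h2, Q, a, a.fix_of_normal h2 hI hH h.minN_iSup.nrm (exists_ne_one_of_irr' hIN
      (by rw [W.card_eq, hc]; nlinarith)) hN b⟩
  · have h3 : (1 : F) ≠ -1 := fun h => h2 (by linear_combination h)
    have h4 := W.eps hσ
    rw [hε, Finset.prod_const, Finset.card_fin] at h4
    have hT : T.ε = -1 := T.hε.resolve_left fun h => h3 (by rw [h4, h, one_pow])
    have hodd : Odd t := by
      rw [← Nat.not_even_iff_odd]
      intro h
      rw [hT, h.neg_one_pow] at h4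
      exact h3 h4.symm
    refine Or.inl ⟨h2, k, t, e, P, T, hodd, by obtain ⟨j, rfl⟩ := hodd; omega, hk, ?_, W, hT⟩
    rintro ⟨h5, rfl⟩
    obtain ⟨M, a, b, -⟩ := comps_factor h 0
    exact b (eq_bot_of_perfect (isSolvable_GL23 h5) le_top a)

theorem sp_core [Fintype F] [Nontrivial ι] (hσ : ∀ a, S.σ a = a) (hA : ∀ v, S.f v v = 0)
    {H P : Subgroup (GL ι F)} (hH : H ≤ S.Isom) (hI : Irr H) (h : PreCore H P) :
    S.SpSub H ∨ ((2 : F) = 0 ∧ S.SpC8 H) ∨ InSymplecticResidualClass H := by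
  have hP := h.le.trans hH
  have hσ' : S.σ = RingHom.id F := RingHom.ext hσ
  by_cases hs : ∀ F₀ : Subfield F, F₀ ≠ ⊤ → ¬ RealisableOver F₀ (matrixSet P)
  swap
  · push Not at hs
    obtain ⟨F₀, h0, hR⟩ := hs
    exact Or.inl (S.spSub_of hσ h.nrm h.span hP h0 hR)
  right
  by_cases hQ : ∃ Q : (ι → F) → F, IsNondegenerateQuadraticForm Q ∧ FixesQuadForm (matrixSet P) Q
  · left
    obtain ⟨Q, hQ, hfix⟩ := hQ
    have h1 := isSesq_of_bilinear hQ.polar_bilinear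
    have h3 := fixesForm_polar hfix
    rw [h1.eq_gform, fixesForm_gform_iff] at h3
    obtain ⟨c, hc⟩ := Fixes.unique h.span S.G.isUnit (hσ' ▸ S.fixes_of_le hP) h3
    have h4 : ∀ u v, QuadraticMap.polar Q u v = c * S.f u v := fun u v => by
      rw [h1.eq_gform, hc, gform_smul_mat, f, hσ']
    obtain ⟨u, hu⟩ := exists_ne (0 : ι → F)
    obtain ⟨v, hv⟩ := (hQ.nondegenerate u hu).1
    have hc0 : c ≠ 0 := by rintro rfl; exact hv (by rw [h4, zero_mul])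
    have h2 : (2 : F) = 0 := by
      have h5 := (isSymmetricForm_polar hQ).symm v u
      rw [h4 u, (S.isSymplecticForm hσ hA).skew u, mul_neg, ← h4] at h5
      exact (mul_eq_zero.1 (show (2 : F) * _ = 0 by linear_combination h5)).resolve_right hv
    have h6 : S.IsQ fun v => c⁻¹ * Q v := ⟨fun a v => by rw [hQ.smul]; ring, fun u v => by
      rw [← inv_mul_cancel_left₀ hc0 (S.f u v), ← h4]
      simp only [QuadraticMap.polar]; ring⟩
    exact ⟨h2, _, h6, h6.fix_of_normal h2 hI hH h.nrm (exists_ne_one_of_irr'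
      (irr_of_spanA_eq_top h.span) Fintype.one_lt_card) hP fun g hg v =>
        congrArg (c⁻¹ * ·) (fixQ_iff.2 hfix g hg v)⟩
  · refine Or.inr ⟨P, h.isResidualCore hs, hQ, ?_⟩
    rintro ⟨τ, f', hf, hfix⟩
    have h1 := isSesq_of_unitary hf
    rw [h1.eq_gform, fixesForm_gform_iff] at hfix
    refine hs _ (eqLocus_ne_top (σ := (τ : F →+* F)) fun h => hf.ne_refl
      (RingEquiv.ext fun a => RingHom.congr_fun h a))
      (realisableOver_iff.2 (realisableOver_of_trace h.span fun g hg => ?_))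
    change (τ : F →+* F) _ = _
    rw [← fixes_trace_inv (h1.isUnit_gram hf.nondegenerate) hfix hg, S.trace_inv (hP hg), hσ]
    rfl

/-- the cases of Aschbacher's theorem for a symplectic group -/
def SpCases [Fintype F] (H : Subgroup (GL ι F)) : Prop :=
  S.C1t H ∨ S.C1n H ∨ S.C2n H ∨ ((2 : F) ≠ 0 ∧ S.C2t H) ∨ S.SpC3 H ∨ ((2 : F) ≠ 0 ∧ S.SpC3u H) ∨
    ((2 : F) ≠ 0 ∧ Irr H ∧ S.Prim H ∧ S.SpC4 H) ∨ S.SpSub H ∨ S.SpC6 H ∨ ((2 : F) ≠ 0 ∧ S.SpC7 H) ∨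
    ((2 : F) = 0 ∧ S.SpC8 H) ∨ InSymplecticResidualClass H

theorem sp_main [Fintype F] [Nontrivial ι] (hσ : ∀ a, S.σ a = a) (hε : S.ε = -1)
    (hA : ∀ v, S.f v v = 0) {H : Subgroup (GL ι F)} (hH : H ≤ S.Isom) : S.SpCases H := by
  have hH' := hH.trans S.isom_le_sim
  unfold SpCases
  by_cases hI : Irr H
  swap
  · rcases S.red_cases hH' hI with h | h | h <;> simp only [h, true_or, or_true]
  by_cases hP : S.Prim H
  swap
  · rcases S.sp_comm hσ hA hH hI hP with h | h | h | h | h <;>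
      simp only [eq_true h, true_or, or_true]
  rcases hP.tens_or_prim hH' hI with ⟨n₁, n₂, e, P, S₁, S₂, h₁, h₂, T, -⟩ | h
  · rcases S.sp_tens hσ hε hH hI hP h₁ h₂ T with h | h
    · simp only [eq_true (And.intro h.1 (And.intro hI (And.intro hP h.2))), true_or, or_true]
    · simp only [eq_true h, true_or, or_true]
  rcases h.cases hI with ⟨r, N, hN, hE⟩ | ⟨t, k, L, ψ, e, P, h⟩ | ⟨P, h⟩
  · rcases S.sp_c6 hσ hA hN.nrm hE (hN.le.trans hH) (hP.char_le (hN.le.trans hH') hN.nrm)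
      with h | h <;> simp only [eq_true h, true_or, or_true]
  · rcases S.sp_comps hσ hε hH hI h with h | h <;> simp only [eq_true h, true_or, or_true]
  · rcases S.sp_core hσ hA hH hI h with h | h | h <;> simp only [eq_true h, true_or, or_true]

end SF

/-- the standard symplectic form -/
def spSF (m : ℕ) (F : Type*) [Field F] : SF (Fin m ⊕ Fin m) F where
  σ := RingHom.id F
  σσ _ := rfl
  G := ⟨Matrix.J (Fin m) F, -Matrix.J (Fin m) F, by rw [mul_neg, J_squared, neg_neg],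
    by rw [neg_mul, J_squared, neg_neg]⟩
  ε := -1
  hε := Or.inr rfl
  herm := by rw [cT_id, neg_one_smul]; exact J_transpose _ _

theorem spSF_f (m : ℕ) : (spSF m F).f = sympForm m F := rfl

theorem spSF_isom (m : ℕ) : (spSF m F).Isom = spGL m F := rfl

theorem spSF_alt (m : ℕ) (v : Fin m ⊕ Fin m → F) : (spSF m F).f v v = 0 :=
  gform_self_eq_zero (J_transpose _ _) (by rintro (i | i) <;> simp [Matrix.J]) v

theorem spSF_cases [Fintype F] {m : ℕ} (hm : 1 ≤ m) {H : Subgroup (GL (Fin m ⊕ Fin m) F)}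
    (hH : H ≤ spGL m F) : (spSF m F).SpCases H := by
  have : Nontrivial (Fin m ⊕ Fin m) := ⟨⟨Sum.inl ⟨0, hm⟩, Sum.inr ⟨0, hm⟩, by simp⟩⟩
  exact (spSF m F).sp_main (fun _ => rfl) rfl (spSF_alt m) hH

end H28.AF
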