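import Cfsg.Agent.Lib.AschF.SpRow
import Cfsg.Agent.Lib.Orth12.Asch6

/-!
The exceptional non-maximal geometric subgroups of `Sp_4(3)` and `Sp_8(q)`.
-/

set_option autoImplicit false
set_option linter.unusedSectionVars false

namespace H28.AF

open Matrix Cfsg Cfsg.Geo H10.Asch Module
open scoped MatrixGroups Kronecker commutatorElement

variable {ι : Type} [Fintype ι] [DecidableEq ι] {F : Type*} [Field F]

/-- commuting up to sign -/
def PM {A : Type*} [Ring A] (x y : A) : Prop := x * y = y * x ∨ x * y = -(y * x)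

section PM

variable {A : Type*} [Ring A] {x y z : A}

theorem PM.symm (h : PM x y) : PM y x := h.imp Eq.symm fun h => by rw [h, neg_neg]

theorem PM.mul_left (h : PM x z) (h' : PM y z) : PM (x * y) z := by
  rw [PM, mul_assoc]
  rcases h with h | h <;> rcases h' with h' | h' <;>
    simp only [h', mul_neg, ← mul_assoc, h, neg_mul, neg_neg, true_or, or_true]

theorem PM.mul_right (h : PM x y) (h' : PM x z) : PM x (y * z) := (h.symm.mul_left h'.symm).symm

theorem PM.map {B : Type*} [Ring B] {G : Type*} [FunLike G A B] [RingHomClass G A B] (φ : G)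
    (h : PM x y) : PM (φ x) (φ y) :=
  h.imp (fun h => by rw [← map_mul, h, map_mul]) fun h => by rw [← map_mul, h, map_neg, map_mul]

end PM

theorem PM.kron {κ μ : Type} [Fintype κ] [DecidableEq κ] [Fintype μ] [DecidableEq μ]
    {a a' : Matrix κ κ F} {b b' : Matrix μ μ F} (h : PM a a') (h' : PM b b') :
    PM (a ⊗ₖ b) (a' ⊗ₖ b') := by
  rw [PM, ← mul_kronecker_mul, ← mul_kronecker_mul]
  rcases h with h | h <;> rcases h' with h' | h' <;> rw [h, h']
  · exact Or.inl rfl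
  · right; ext; simp
  · right; ext; simp
  · left; ext; simp

theorem pm_iff_cj {g : GL ι F} {y : Matrix ι ι F} : PM (g : Matrix ι ι F) y ↔
    cj g y = y ∨ cj g y = -y := by
  rw [cj_eq_iff, cj_eq_iff, neg_mul, PM]

theorem eq_top_of_kron {κ μ : Type} [Fintype κ] [DecidableEq κ] [Fintype μ] [DecidableEq μ]
    (A : Subalgebra F (Matrix (κ × μ) (κ × μ) F)) (h1 : ∀ a, a ⊗ₖ (1 : Matrix μ μ F) ∈ A)
    (h2 : ∀ b, (1 : Matrix κ κ F) ⊗ₖ b ∈ A) : A = ⊤ := by
  refine eq_top_iff.2 fun x _ => ?_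
  rw [matrix_eq_sum_single x]
  refine sum_mem fun i _ => sum_mem fun j _ => ?_
  have := mul_mem (h1 (single i.1 j.1 (x i j))) (h2 (single i.2 j.2 1))
  rwa [← mul_kronecker_mul, mul_one, one_mul, single_kronecker_single, mul_one] at this

theorem mem_of_two {B : Type*} [Ring B] [Algebra F B] (h2 : (2 : F) ≠ 0)
    (φ : Matrix (Fin 2) (Fin 2) F →ₐ[F] B) {A : Subalgebra F B} (h : φ !![1, 0; 0, -1] ∈ A)
    (h' : φ !![0, 1; 1, 0] ∈ A) (x : Matrix (Fin 2) (Fin 2) F) : φ x ∈ A := by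
  have hx : x = (2⁻¹ * (x 0 0 + x 1 1)) • (1 : Matrix (Fin 2) (Fin 2) F) +
      (2⁻¹ * (x 0 0 - x 1 1)) • !![1, 0; 0, -1] + (2⁻¹ * (x 0 1 + x 1 0)) • !![0, 1; 1, 0] +
      (2⁻¹ * (x 0 1 - x 1 0)) • (!![1, 0; 0, -1] * !![0, 1; 1, 0]) := by
    ext i j; fin_cases i <;> fin_cases j <;> simp <;> field_simp <;> ring
  rw [hx]
  simp only [map_add, map_smul, map_one, map_mul]
  exact add_mem (add_mem (add_mem (A.smul_mem (one_mem _) _) (A.smul_mem h _)) (A.smul_mem h' _))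
    (A.smul_mem (mul_mem h h') _)

theorem mem_of_two' {B : Type*} [Ring B] [Algebra F B] (h2 : (2 : F) ≠ 0)
    (φ : Matrix (Fin 2) (Fin 2) F →ₐ[F] B) {A : Subalgebra F B} (h : φ !![1, 1; 1, -1] ∈ A)
    (h' : φ !![1, -1; -1, -1] ∈ A) (x : Matrix (Fin 2) (Fin 2) F) : φ x ∈ A := by
  refine mem_of_two h2 φ ?_ ?_ x
  · have := A.smul_mem (add_mem h h') 2⁻¹
    rwa [← map_add, ← map_smul, show (2 : F)⁻¹ • (!![1, 1; 1, -1] + !![1, -1; -1, -1]) =
      !![(1 : F), 0; 0, -1] by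
        ext i j; fin_cases i <;> fin_cases j <;> simp <;> field_simp <;> ring] at this
  · have := A.smul_mem (sub_mem h h') 2⁻¹
    rwa [← map_sub, ← map_smul, show (2 : F)⁻¹ • (!![1, 1; 1, -1] - !![1, -1; -1, -1]) =
      !![(0 : F), 1; 1, 0] by
        ext i j; fin_cases i <;> fin_cases j <;> simp <;> field_simp <;> ring] at this

section Three

variable [Fintype F]

theorem three_eq_zero (hF : Fintype.card F = 3) : (3 : F) = 0 := by
  have := FiniteField.cast_card_eq_zero F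
  rwa [hF] at this

theorem two_ne_zero_of_three (hF : Fintype.card F = 3) : (2 : F) ≠ 0 :=
  two_ne_zero_iff_odd_card.2 (hF ▸ by decide)

/-- the elements of order four in `SL_2(3)` commute up to sign -/
theorem pm_q8 (hF : Fintype.card F = 3) {x y z x' y' z' : F} (h : x * x + y * z = -1)
    (h' : x' * x' + y' * z' = -1) : PM !![x, y; z, -x] !![x', y'; z', -x'] := by
  let ψ := (ZMod.ringEquivOfPrime F Nat.prime_three hF).symm
  have key : ∀ x y z x' y' z' : ZMod 3, x * x + y * z = -1 → x' * x' + y' * z' = -1 →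
      (y * z' = z * y' ∧ x * y' = y * x' ∧ z * x' = x * z') ∨
        x * x' + x * x' + y * z' + z * y' = 0 := by decide +kernel
  rcases key (ψ x) (ψ y) (ψ z) (ψ x') (ψ y') (ψ z') (by simpa using congrArg ψ h)
    (by simpa using congrArg ψ h') with ⟨a, b, c⟩ | a
  · have a : y * z' = z * y' := ψ.injective (by simpa using a)
    have b : x * y' = y * x' := ψ.injective (by simpa using b)
    have c : z * x' = x * z' := ψ.injective (by simpa using c)
    left
    ext i j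
    fin_cases i <;> fin_cases j <;> simp
    exacts [by linear_combination a, by linear_combination 2 * b, by linear_combination 2 * c,
      by linear_combination -a]
  · have a : x * x' + x * x' + y * z' + z * y' = 0 := ψ.injective (by simpa using a)
    right
    ext i j
    fin_cases i <;> fin_cases j <;> simp
    exacts [by linear_combination a, by ring, by ring, by linear_combination a]

end Three

namespace SF

variable (S : SF ι F)

/-- a normalised generating set of skew elements of order four which commute up to sign -/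
theorem sp_c6_of_set [Fintype F] [Nontrivial ι] (h2 : (2 : F) ≠ 0) (hσ : ∀ a, S.σ a = a)
    (hA : ∀ v, S.f v v = 0) {H : Subgroup (GL ι F)} (hH : H ≤ S.Isom) (Y : Set (Matrix ι ι F))
    (hst : ∀ y ∈ Y, S.st y = -y) (hsq : ∀ y ∈ Y, y * y = -1) (hc : ∀ x ∈ Y, ∀ y ∈ Y, PM x y)
    (hN : Nrm H Y) (htop : Algebra.adjoin F Y = ⊤) : S.SpSub H ∨ S.SpC6 H := by
  let R : Subgroup (GL ι F) :=
    { carrier := {g | g ∈ S.Isom ∧ ∀ y ∈ Y, cj g y = y ∨ cj g y = -y}
      mul_mem' := fun {a b} ha hb => ⟨mul_mem ha.1 hb.1, fun y hy =>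
        pm_iff_cj.1 ((pm_iff_cj.2 (ha.2 y hy)).mul_left (pm_iff_cj.2 (hb.2 y hy)))⟩
      one_mem' := ⟨one_mem _, fun y _ => Or.inl (cj_one y)⟩
      inv_mem' := fun {a} ha => ⟨inv_mem ha.1, fun y hy => (ha.2 y hy).imp
        (fun h => by rw [← h, cj_inv_cj, h]) fun h => by
          rw [← neg_eq_iff_eq_neg, ← map_neg, ← h, cj_inv_cj]⟩ }
  have hu : ∀ y ∈ Y, ∃ g ∈ R, (g : Matrix ι ι F) = y := fun y hy =>
    ⟨⟨y, -y, by rw [mul_neg, hsq y hy, neg_neg], by rw [neg_mul, hsq y hy, neg_neg]⟩,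
      ⟨S.mem_isom_iff_st.2 (by change S.st y * y = 1; rw [hst y hy, neg_mul, hsq y hy, neg_neg]),
        fun z hz => pm_iff_cj.1 (hc y hy z hz)⟩, rfl⟩
  have hsc : ∀ g : GL ι F, (∀ y ∈ Y, cj g y = y) → g ∈ scalars ι F := fun g hg => by
    obtain ⟨c, hc⟩ := scalar_of_forall_comm (x := (g : Matrix ι ι F)) fun y =>
      Algebra.commute_of_mem_adjoin_of_forall_mem_commute (htop ▸ Algebra.mem_top)
        fun z hz => (cj_eq_iff _ _ _).1 (hg z hz)
    exact mem_scalars_of_eq_smul hc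
  have hR : IsEA 2 R := ⟨Nat.prime_two, eq_top_iff.2 (htop ▸ Algebra.adjoin_le fun y hy => by
      obtain ⟨g, hg, rfl⟩ := hu y hy
      exact coe_mem_spanA hg), Subgroup.commutator_le.2 fun a ha b hb => hsc _ fun y hy => by
      have h : cj (a * b) y = cj (b * a) y := by
        rw [cj_mul, cj_mul]
        rcases ha.2 y hy with h | h <;> rcases hb.2 y hy with h' | h' <;>
          simp only [h, h', map_neg]
      have h3 := ((mul_mem hb ha : b * a ∈ R).2 y hy)
      have h4 := ((inv_mem (mul_mem hb ha) : (b * a)⁻¹ ∈ R).2 y hy)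
      rw [show ⁅a, b⁆ = a * b * (b * a)⁻¹ by rw [commutatorElement_def]; group, cj_mul]
      rcases h4 with h4 | h4
      · rw [h4, h, ← h4, cj_cj_inv, h4]
      · rw [h4, map_neg, h, ← map_neg, ← h4, cj_cj_inv],
    fun a ha => hsc _ fun y hy => by
      rw [sq, cj_mul]
      rcases ha.2 y hy with h | h <;> simp only [h, map_neg, neg_neg]⟩
  refine S.sp_c6 hσ hA (R := R) (fun h hh g hg => ⟨mul_mem (mul_mem (hH hh) hg.1) (inv_mem (hH hh)),
    fun y hy => ?_⟩) hR (fun g hg => hg.1) fun A hA' hab x hx => ?_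
  · rw [cj_mul, cj_mul]
    rcases hg.2 _ (hN _ (inv_mem hh) y hy) with h1 | h1 <;> simp [h1, cj_cj_inv]
  by_contra hxs
  have hxR : x ∈ R := Subgroup.map_subtype_le A hx
  obtain ⟨y, hy, hxy⟩ : ∃ y ∈ Y, cj x y = -y := by
    by_contra hn
    push Not at hn
    exact hxs (hsc x fun y hy => (hxR.2 y hy).resolve_right (hn y hy))
  obtain ⟨u, huR, rfl⟩ := hu y hy
  have h1 : (1 + (u : Matrix ι ι F)) * (2⁻¹ : F) • (1 - u) = 1 := by
    rw [mul_smul_comm, add_mul, mul_sub, mul_sub, hsq _ hy, one_mul, one_mul, mul_one,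
      sub_add_sub_cancel, sub_neg_eq_add, ← two_smul F, smul_smul, inv_mul_cancel₀ h2, one_smul]
  let g : GL ι F := ⟨1 + u, (2⁻¹ : F) • (1 - u), h1, mul_eq_one_comm.1 h1⟩
  have hg : ∀ r : GL ι F, cj r (u : Matrix ι ι F) = -u → g * r * g⁻¹ = u * r := fun r hr => by
    rw [mul_inv_eq_iff_eq_mul]
    apply Units.ext
    rw [cj_eq_iff] at hr
    change (1 + (u : Matrix ι ι F)) * r = u * r * (1 + u)
    rw [mul_add, mul_one, mul_assoc, hr, ← mul_assoc, mul_neg, hsq _ hy, neg_neg, add_mul, add_comm]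
  have hn : ∀ r ∈ R, g * r * g⁻¹ ∈ R := fun r hr => by
    rcases hr.2 _ hy with h | h
    · rw [show g * r = r * g from Units.ext (by
        change (1 + (u : Matrix ι ι F)) * r = r * (1 + u)
        rw [mul_add, add_mul, (cj_eq_iff _ _ _).1 h, mul_one, one_mul]), mul_inv_cancel_right]
      exact hr
    · rw [hg r h]; exact mul_mem huR hr
  have : Finite (GL ι F) := finite_GL
  have hn' : NrmS (Subgroup.zpowers g) R := nrmS_iff_le_normalizer.2 (Subgroup.zpowers_le.2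
    (Subgroup.mem_normalizer_fintype hn))
  have h3 := hab x hx _ (hg x hxy ▸ hn'.map_characteristic A hA' g (Subgroup.mem_zpowers g) x hx)
  rw [← mul_assoc, mul_left_inj] at h3
  rw [cj_coe, h3, mul_inv_cancel_right, eq_neg_iff_add_eq_zero, ← two_smul F,
    smul_eq_zero_iff_right h2] at hxy
  exact u.ne_zero hxy

theorem st_eq_adjugate (S : SF (Fin 2) F) (hσ : ∀ a, S.σ a = a) (hA : ∀ v, S.f v v = 0)
    (a : Matrix (Fin 2) (Fin 2) F) : S.st a = a.adjugate := by
  have h0 : ∀ i, (S.G : Matrix (Fin 2) (Fin 2) F) i i = 0 := fun i =>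
    (gform_single S.σ _ i i).symm.trans (hA _)
  have h1 : (S.G : Matrix (Fin 2) (Fin 2) F) 1 0 = -(S.G : Matrix (Fin 2) (Fin 2) F) 0 1 :=
    (gform_single S.σ _ 1 0).symm.trans (((S.isSymplecticForm hσ hA).skew _ _).trans
      (congrArg Neg.neg (gform_single S.σ _ 0 1)))
  apply S.G.isUnit.mul_right_inj.1
  rw [S.G_mul_st hσ, adjugate_fin_two]
  ext i j
  fin_cases i <;> fin_cases j <;> simp [mul_apply, h0, h1] <;> ring

end SF

section Four

open H12.A

/-- the transposition of the two middle coordinates -/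
def w4 (F : Type*) [Field F] : GL (Fin 4) F :=
  ⟨!![1, 0, 0, 0; 0, 0, 1, 0; 0, 1, 0, 0; 0, 0, 0, 1], !![1, 0, 0, 0; 0, 0, 1, 0; 0, 1, 0, 0; 0, 0, 0, 1],
    by ext i j; fin_cases i <;> fin_cases j <;> simp [mul_apply, Fin.sum_univ_four],
    by ext i j; fin_cases i <;> fin_cases j <;> simp [mul_apply, Fin.sum_univ_four]⟩

theorem w4_mul_w4 : w4 F * w4 F = 1 := Units.ext (w4 F).val_inv

theorem w4_G4 : (w4 F : Matrix (Fin 4) (Fin 4) F)ᵀ * G4 F * w4 F = G4 F := by
  ext i j; fin_cases i <;> fin_cases j <;> simp [w4, G4, mul_apply, Fin.sum_univ_four]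

theorem det_w4 : (w4 F : Matrix (Fin 4) (Fin 4) F).det = -1 := by
  simp [w4, det_succ_row_zero, Fin.sum_univ_succ, Fin.succAbove]

/-- the standard bijection -/
def e4 : Fin 2 × Fin 2 ≃ Fin 4 := finProdFinEquiv

theorem psi4_eq (a : Matrix (Fin 2) (Fin 2) F) :
    psi4 F a = reindexAlgEquiv F F e4 ((1 : Matrix (Fin 2) (Fin 2) F) ⊗ₖ a) := by
  ext i j
  fin_cases i <;> fin_cases j <;> simp [psi4_apply, e4, finProdFinEquiv, Fin.divNat, Fin.modNat]

theorem cj_w4_psi4 (a : Matrix (Fin 2) (Fin 2) F) : cj (w4 F) (psi4 F a) =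
    reindexAlgEquiv F F e4 (a ⊗ₖ (1 : Matrix (Fin 2) (Fin 2) F)) := by
  have : reindexAlgEquiv F F e4 (a ⊗ₖ (1 : Matrix (Fin 2) (Fin 2) F)) =
      !![a 0 0, 0, a 0 1, 0; 0, a 0 0, 0, a 0 1; a 1 0, 0, a 1 1, 0; 0, a 1 0, 0, a 1 1] := by
    ext i j
    fin_cases i <;> fin_cases j <;> simp [e4, finProdFinEquiv, Fin.divNat, Fin.modNat]
  rw [cj_eq_iff, this]
  ext i j
  fin_cases i <;> fin_cases j <;> simp [w4, psi4_apply, mul_apply, Fin.sum_univ_four]

/-- The similarities of a `4`-dimensional form of plus type permute two matrix algebras. -/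
theorem exists_two_factors [Finite F] (S : SF (Fin 4) F) (h2 : (2 : F) ≠ 0) (hσ : ∀ a, S.σ a = a)
    (hε : S.ε = 1) (hd : IsSquare (S.G : Matrix (Fin 4) (Fin 4) F).det) :
    ∃ φ φ' : Matrix (Fin 2) (Fin 2) F →ₐ[F] Matrix (Fin 4) (Fin 4) F,
      (∀ x, S.st (φ x) = φ x.adjugate) ∧ (∀ x, S.st (φ' x) = φ' x.adjugate) ∧
      (∀ a b, Commute (φ a) (φ' b)) ∧
      (∀ A : Subalgebra F (Matrix (Fin 4) (Fin 4) F), (∀ a, φ a ∈ A) → (∀ a, φ' a ∈ A) → A = ⊤) ∧
      ∀ t ∈ similarityGroup S.f, ((∀ x, cj t (φ x) ∈ φ.range) ∧ ∀ x, cj t (φ' x) ∈ φ'.range) ∨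
        ((∀ x, cj t (φ x) ∈ φ'.range) ∧ ∀ x, cj t (φ' x) ∈ φ.range) := by
  obtain ⟨g, hg⟩ := exists_pull_eq S (S4 F) h2 hσ hε (fun _ => rfl) rfl (by
    change IsSquare ((G4 F).det * _)
    rwa [det_G4, one_mul])
  have hG := (S.pull (Equiv.refl _) g).G_mul_st hσ
  rw [hg] at hG
  change ∀ x, G4 F * _ = _ * G4 F at hG
  have hw : trGL (Equiv.refl (Fin 4)) g (w4 F) ∈ S.Isom := by
    rw [S.trGL_mem_isom, SF.mem_isom_iff_st]
    apply (S4 F).G.isUnit.mul_right_inj.1
    change G4 F * _ = G4 F * _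
    rw [← mul_assoc, hG, w4_G4, mul_one]
  let φ := (tr (Equiv.refl _) g).toAlgHom.comp (psi4 F)
  have hφ : ∀ x, S.st (φ x) = φ x.adjugate := fun x => by
    change S.st (tr _ g _) = tr _ g _
    rw [S.st_tr]
    congr 1
    apply (S4 F).G.isUnit.mul_right_inj.1
    exact (hG _).trans (G4_mul_psi4 x).symm
  set w := trGL (Equiv.refl (Fin 4)) g (w4 F) with hwd
  have hww : w * w = 1 := by rw [hwd, ← map_mul, w4_mul_w4, map_one]
  have hφ' : ∀ x, cj w (φ x) = tr (Equiv.refl _) g (cj (w4 F) (psi4 F x)) := fun x => cj_trGL _ _ _ _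
  have hdw : (w : Matrix (Fin 4) (Fin 4) F).det = -1 := by rw [hwd, coe_trGL, det_tr, det_w4]
  have key : ∀ (t : GL (Fin 4) F) (l : F), S.st t * (t : Matrix (Fin 4) (Fin 4) F) = l • 1 →
      (t : Matrix (Fin 4) (Fin 4) F).det = l ^ 2 → ∀ x, cj t (φ x) ∈ φ.range := by
    intro t l h1 h3 x
    obtain ⟨t, rfl⟩ := (trGL (Equiv.refl (Fin 4)) g).surjective t
    rw [coe_trGL] at h1 h3
    rw [det_tr] at h3
    rw [S.st_tr, ← map_mul, ← map_one (tr (Equiv.refl _) g), ← map_smul,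
      (tr (Equiv.refl _) g).injective.eq_iff] at h1
    obtain ⟨y, hy⟩ := cj_psi4 h2 (by rw [← hG, mul_assoc, h1, mul_smul_comm, mul_one]) h3 x
    exact ⟨y, (congrArg (tr (Equiv.refl _) g) hy).trans (cj_trGL _ _ _ _).symm⟩
  refine ⟨φ, (cj w).toAlgHom.comp φ, hφ, fun x => (S.st_cj hw _).trans (congrArg _ (hφ x)),
    fun a b => ?_, fun A h h' => ?_, fun t ⟨l, hl⟩ => ?_⟩
  · change Commute (tr _ g (psi4 F a)) (cj w (φ b))
    rw [hφ', cj_w4_psi4, psi4_eq]
    refine (Commute.map (Commute.map ?_ _) _)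
    rw [Commute, SemiconjBy, ← mul_kronecker_mul, ← mul_kronecker_mul, mul_one, one_mul, mul_one,
      one_mul]
  · have := eq_top_of_kron (A.comap ((reindexAlgEquiv F F e4).trans
      (tr (Equiv.refl (Fin 4)) g)).toAlgHom) (fun a => by
        have := h' a
        change cj w (φ a) ∈ A at this
        rwa [hφ', cj_w4_psi4] at this) fun a => by
        have := h a
        change tr _ g (psi4 F a) ∈ A at this
        rwa [psi4_eq] at this
    refine eq_top_iff.2 fun x _ => ?_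
    obtain ⟨y, rfl⟩ := ((reindexAlgEquiv F F e4).trans
      (tr (Equiv.refl (Fin 4)) g)).surjective x
    exact (this ▸ Algebra.mem_top : y ∈ A.comap _)
  · have h1 := S.st_mul_self_of_sim hl
    rw [hσ] at h1
    have hw1 := S.mem_isom_iff_st.1 hw
    have hw2 := mul_eq_one_comm.1 hw1
    have a1 : S.st (w * t : GL (Fin 4) F) * (w * t : GL (Fin 4) F) = (l : F) • 1 := by
      rw [Units.val_mul, S.st_mul, mul_assoc, ← mul_assoc (S.st w), hw1, one_mul, h1]
    have a2 : ∀ t : GL (Fin 4) F, S.st t * (t : Matrix (Fin 4) (Fin 4) F) = (l : F) • 1 →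
        S.st (t * w : GL (Fin 4) F) * (t * w : GL (Fin 4) F) = (l : F) • 1 := fun t h1 => by
      rw [Units.val_mul, S.st_mul, mul_assoc, ← mul_assoc (S.st t), h1, smul_mul_assoc, one_mul,
        mul_smul_comm, hw1]
    have hcw : ∀ x, cj w (cj w x) = x := fun x => by rw [← cj_mul, hww, cj_one]
    have h3 := congrArg det h1
    rw [det_mul, det_st S hσ, det_smul, det_one, mul_one, Fintype.card_fin] at h3
    rcases mul_self_eq_mul_self_iff.1 (h3.trans (show (l : F) ^ 4 = l ^ 2 * l ^ 2 by ring))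
      with h4 | h4
    · refine Or.inl ⟨key t l h1 h4, fun x => ?_⟩
      obtain ⟨y, hy⟩ := key (w * t * w) l (a2 _ a1) (by simp [hdw, h4]) x
      refine ⟨y, ?_⟩
      change cj w (φ y) = cj t (cj w (φ x))
      rw [show φ y = _ from hy, cj_mul, cj_mul, hcw]
    · refine Or.inr ⟨fun x => ?_, fun x => ?_⟩
      · obtain ⟨y, hy⟩ := key (w * t) l a1 (by simp [hdw, h4]) x
        refine ⟨y, ?_⟩
        change cj w (φ y) = cj t (φ x)
        rw [show φ y = _ from hy, cj_mul, hcw]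
      · have := key (t * w) l (a2 _ h1) (by simp [hdw, h4]) x
        rwa [cj_mul] at this

end Four

theorem eq_of_adjugate_eq_neg {c : Matrix (Fin 2) (Fin 2) F} (h : c.adjugate = -c) :
    c = !![c 0 0, c 0 1; c 1 0, -c 0 0] := by
  have := congrFun (congrFun h 0) 0
  rw [adjugate_fin_two] at this
  ext i j
  fin_cases i <;> fin_cases j <;> simp
  simpa using this

theorem SF.spEx8 [Fintype F] (S : SF ι F) (hσ : ∀ a, S.σ a = a) (hA : ∀ v, S.f v v = 0)
    {H : Subgroup (GL ι F)} (hH : H ≤ S.Isom) : S.SpEx8 H := by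
  intro e P S₁ S₂ h2 _ _ T hε₁ hε₂ hp
  have : Nontrivial ι := e.nontrivial
  have hσ₁ : ∀ a, S₁.σ a = a := by rw [T.σ₁]; exact hσ
  have hσ₂ : ∀ a, S₂.σ a = a := by rw [T.σ₂]; exact hσ
  have hadj := S₁.st_eq_adjugate hσ₁ (S₁.ε_eq_neg_one_alt h2 hσ₁ hε₁)
  obtain ⟨Q, hQ⟩ := H12.A.exists_oq_of_sym S₂ h2 hσ₂ hε₂
  obtain ⟨φ, φ', a1, a2, a3, a4, a5⟩ := exists_two_factors S₂ h2 hσ₂ hε₂ (by
    simpa using (hQ.plus_iff_det' h2 (m := 2) (by simp)).1 ((hQ.plus_iff_self h2).1 hp))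
  let ρ := psiL (e.trans (Equiv.prodComm _ _)) P
  have hρ : ∀ b, ρ b = tr e P (1 ⊗ₖ b) := fun b => tr_swap e P 1 b
  let ψ : Fin 3 → (Matrix (Fin 2) (Fin 2) F →ₐ[F] Matrix ι ι F) := ![psiL e P, ρ.comp φ, ρ.comp φ']
  have hst : ∀ i a, S.st (ψ i a) = ψ i a.adjugate := fun i a => by
    fin_cases i
    · exact (T.st_psiL a).trans (congrArg _ (hadj a))
    · exact (T.swap.st_psiL _).trans (congrArg _ (a1 a))
    · exact (T.swap.st_psiL _).trans (congrArg _ (a2 a))
  have hc0 : ∀ a b, Commute (psiL e P a) (ρ b) := fun a b => by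
    rw [hρ, psiL_apply]
    refine Commute.map ?_ _
    rw [Commute, SemiconjBy, ← mul_kronecker_mul, ← mul_kronecker_mul, mul_one, one_mul, mul_one,
      one_mul]
  have hcomm : ∀ i j, i ≠ j → ∀ a b, Commute (ψ i a) (ψ j b) := fun i j hij a b => by
    fin_cases i <;> fin_cases j
    exacts [absurd rfl hij, hc0 _ _, hc0 _ _, (hc0 _ _).symm, absurd rfl hij, (a3 a b).map ρ,
      (hc0 _ _).symm, ((a3 b a).map ρ).symm, absurd rfl hij]
  have hgen : ∀ A : Subalgebra F (Matrix ι ι F), (∀ i a, ψ i a ∈ A) → A = ⊤ := fun A h => by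
    have h1 := a4 (A.comap ρ) (h 1) (h 2)
    have := eq_top_of_kron (A.comap (tr e P).toAlgHom) (h 0) fun b => by
      change tr e P _ ∈ A
      rw [← hρ]
      exact (h1 ▸ Algebra.mem_top : b ∈ A.comap ρ)
    refine eq_top_iff.2 fun x _ => ?_
    obtain ⟨y, rfl⟩ := (tr e P).surjective x
    exact (this ▸ Algebra.mem_top : y ∈ A.comap _)
  have hperm : ∀ h ∈ H, ∃ τ : Equiv.Perm (Fin 3), ∀ i, ∀ x ∈ (ψ i).range,
      cj h x ∈ (ψ (τ i)).range := fun h hh => by
    obtain ⟨s, -, hs⟩ := T.cj_psiL (hH.trans S.isom_le_sim) hh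
    obtain ⟨t, ht, ht'⟩ := T.swap.cj_psiL (hH.trans S.isom_le_sim) hh
    have key : ∀ {α β : Matrix (Fin 2) (Fin 2) F →ₐ[F] Matrix (Fin 4) (Fin 4) F},
        (∀ x, cj t (α x) ∈ β.range) → ∀ x ∈ (ρ.comp α).range, cj h x ∈ (ρ.comp β).range := by
      rintro α β h _ ⟨x, rfl⟩
      obtain ⟨y, hy⟩ := h x
      exact ⟨y, (congrArg ρ hy).trans (ht' _).symm⟩
    have k0 : ∀ x ∈ (psiL e P).range, cj h x ∈ (psiL e P).range := by
      rintro _ ⟨x, rfl⟩
      exact ⟨_, (hs x).symm⟩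
    rcases a5 t ht with ⟨b, c⟩ | ⟨b, c⟩
    · exact ⟨1, fun i => by fin_cases i; exacts [k0, key b, key c]⟩
    · exact ⟨Equiv.swap 1 2, fun i => by fin_cases i; exacts [k0, key b, key c]⟩
  obtain ⟨e', P', hP⟩ := exists_tr_fac ψ hcomm hgen
  have hinj : ∀ i, Function.Injective (ψ i) := fun i a b h => by
    rw [hP, hP] at h
    exact fac_injective i ((tr e' P').injective h)
  by_cases h3 : Fintype.card F = 3
  · have h30 := three_eq_zero h3
    refine (S.sp_c6_of_set h2 hσ hA hH {y | (∃ i, y ∈ (ψ i).range) ∧ S.st y = -y ∧ y * y = -1}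
      (fun y hy => hy.2.1) (fun y hy => hy.2.2) ?_ ?_ (hgen _ fun i => ?_)).imp_right Or.inl
    · have key : ∀ i c, S.st (ψ i c) = -ψ i c → ψ i c * ψ i c = -1 →
          ∃ x y z, c = !![x, y; z, -x] ∧ x * x + y * z = -1 := fun i c h1 h2 => by
        rw [hst, ← map_neg] at h1
        rw [← map_mul, ← map_one (ψ i), ← map_neg] at h2
        refine ⟨_, _, _, eq_of_adjugate_eq_neg (hinj i h1), ?_⟩
        simpa [mul_apply] using congrFun (congrFun (hinj i h2) 0) 0
      rintro _ ⟨⟨i, c, rfl⟩, h1⟩ _ ⟨⟨j, d, rfl⟩, h2⟩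
      by_cases hij : i = j
      · subst hij
        obtain ⟨x, y, z, rfl, h4⟩ := key i c h1.1 h1.2
        obtain ⟨x', y', z', rfl, h5⟩ := key i d h2.1 h2.2
        exact (pm_q8 h3 h4 h5).map (ψ i)
      · exact Or.inl (hcomm i j hij c d)
    · rintro h hh y ⟨⟨i, hi⟩, h1, h2⟩
      obtain ⟨τ, hτ⟩ := hperm h hh
      exact ⟨⟨_, hτ i y hi⟩, by rw [S.st_cj (hH hh), h1, map_neg],
        by rw [← map_mul, h2, map_neg, map_one]⟩
    · have key : ∀ x y : F, x * x + y * y = -1 → ψ i !![x, y; y, -x] ∈ Algebra.adjoin F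
          {y | (∃ i, y ∈ (ψ i).range) ∧ S.st y = -y ∧ y * y = -1} := fun x y h =>
        Algebra.subset_adjoin ⟨⟨i, _, rfl⟩, by
          rw [hst, ← map_neg, adjugate_fin_two]; simp, by
          rw [← map_mul, ← map_one (ψ i), ← map_neg]
          congr 1
          ext i j
          fin_cases i <;> fin_cases j <;> simp
          exacts [h, by ring, by ring, by linear_combination h]⟩
      exact mem_of_two' h2 _ (key 1 1 (by linear_combination h30))
        (key 1 (-1) (by linear_combination h30))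
  · obtain ⟨T', W, -⟩ := S.exists_isWr (H := H) e' P' (fun h hh => by
      obtain ⟨τ, hτ⟩ := hperm h hh
      exact mem_tensorWreathSubgroup_of_nrm hP τ hτ) fun i a =>
        ⟨a.adjugate, by rw [← hP, hst, hP]⟩
    refine Or.inr (Or.inr ⟨2, 3, e', P', S₁, by decide, le_rfl, le_rfl, fun h => h3 h.1,
      W.of_prop (fun _ => T.σ₁) fun i => S₁.exists_sc_of_st_eq _ ((W.σ i).trans T.σ₁.symm)
        fun a => hinj i ?_, hε₁⟩)
    rw [hP, ← W.st_fac, ← hP, hst, hadj]

end H28.AF
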