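import Cfsg.Agent.Lib.AschF.SpEx

/-!
The exceptional non-maximal geometric subgroups of `Sp_4(3)`.
-/

set_option autoImplicit false
set_option linter.unusedSectionVars false

namespace H28.AF

open Matrix Cfsg Cfsg.Geo H10.Asch Module
open scoped MatrixGroups Kronecker commutatorElement

variable {ι : Type} [Fintype ι] [DecidableEq ι] {F : Type*} [Field F]

section Coord

/-- the Gram matrix in adapted coordinates -/
def G22 (δ : F) : Matrix (Fin 2 × Fin 2) (Fin 2 × Fin 2) F := !![0, 1; -1, 0] ⊗ₖ !![1, 0; 0, -δ]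

/-- the skew element in adapted coordinates -/
def j22 (δ : F) : Matrix (Fin 2 × Fin 2) (Fin 2 × Fin 2) F :=
  (1 : Matrix (Fin 2) (Fin 2) F) ⊗ₖ !![0, δ; 1, 0]

theorem sa_entries {δ : F} (h2 : (2 : F) ≠ 0) (hδ : δ * δ = 1)
    {x : Matrix (Fin 2 × Fin 2) (Fin 2 × Fin 2) F} (hs : G22 δ * x = xᵀ * G22 δ) :
    x (1, 0) (0, 0) = 0 ∧ x (1, 1) (0, 1) = 0 ∧ x (0, 0) (1, 0) = 0 ∧ x (0, 1) (1, 1) = 0 ∧
    x (1, 1) (0, 0) = δ * x (1, 0) (0, 1) ∧ x (0, 1) (1, 0) = δ * x (0, 0) (1, 1) ∧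
    x (1, 0) (1, 0) = x (0, 0) (0, 0) ∧ x (1, 1) (1, 1) = x (0, 1) (0, 1) ∧
    x (1, 0) (1, 1) = -δ * x (0, 1) (0, 0) ∧ x (1, 1) (1, 0) = -δ * x (0, 0) (0, 1) := by
  have s := fun i j => congrFun (congrFun hs i) j
  have c2 : ∀ {a : F}, 2 * a = 0 → a = 0 := fun h => (mul_eq_zero.1 h).resolve_left h2
  have s1 := s (0, 0) (0, 0); have s2 := s (0, 1) (0, 1); have s3 := s (1, 0) (1, 0)
  have s4 := s (1, 1) (1, 1); have s5 := s (0, 0) (0, 1); have s6 := s (1, 0) (1, 1)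
  have s7 := s (0, 0) (1, 0); have s8 := s (0, 1) (1, 1); have s9 := s (0, 0) (1, 1)
  have s10 := s (0, 1) (1, 0)
  simp [G22, mul_apply, Fintype.sum_prod_type, -mul_eq_zero, -mul_eq_mul_left_iff,
    -mul_eq_mul_right_iff] at s1 s2 s3 s4 s5 s6 s7 s8 s9 s10
  refine ⟨c2 (by linear_combination s1), c2 (by linear_combination -δ * s2 - 2 * x (1, 1) (0, 1) * hδ),
    c2 (by linear_combination -s3), c2 (by linear_combination δ * s4 - 2 * x (0, 1) (1, 1) * hδ),
    by linear_combination -δ * s5 - x (1, 1) (0, 0) * hδ,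
    by linear_combination -δ * s6 - x (0, 1) (1, 0) * hδ, s7,
    by linear_combination δ * s8 - (x (1, 1) (1, 1) - x (0, 1) (0, 1)) * hδ,
    by linear_combination s9, by linear_combination -δ * s10 - x (1, 1) (1, 0) * hδ⟩

theorem anti_form {δ : F} (h2 : (2 : F) ≠ 0) (hδ : δ * δ = 1)
    {x : Matrix (Fin 2 × Fin 2) (Fin 2 × Fin 2) F} (hs : G22 δ * x = xᵀ * G22 δ)
    (ha : x * j22 δ = -(j22 δ * x)) (hq : x * x = 1) :
    ∃ a c : F, x = (1 : Matrix (Fin 2) (Fin 2) F) ⊗ₖ !![a, -δ * c; c, -a] ∧ a * a - δ * (c * c) = 1 := by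
  obtain ⟨s1, s2, s3, s4, s5, s6, s7, s8, s9, s10⟩ := sa_entries h2 hδ hs
  have m := fun i j => congrFun (congrFun ha i) j
  have c2 : ∀ {a : F}, 2 * a = 0 → a = 0 := fun h => (mul_eq_zero.1 h).resolve_left h2
  have m1 := m (0, 0) (0, 0); have m2 := m (0, 1) (0, 0); have m3 := m (0, 0) (1, 0)
  have m4 := m (1, 0) (0, 0)
  simp [j22, mul_apply, Fintype.sum_prod_type, -mul_eq_zero, -mul_eq_mul_left_iff,
    -mul_eq_mul_right_iff] at m1 m2 m3 m4
  have e1 : x (0, 0) (1, 1) = 0 := c2 (by linear_combination m3 - δ * s6 - x (0, 0) (1, 1) * hδ)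
  have e2 : x (1, 0) (0, 1) = 0 := c2 (by linear_combination m4 - δ * s5 - x (1, 0) (0, 1) * hδ)
  have hx : x = (1 : Matrix (Fin 2) (Fin 2) F) ⊗ₖ
      !![x (0, 0) (0, 0), -δ * x (0, 1) (0, 0); x (0, 1) (0, 0), -x (0, 0) (0, 0)] := by
    ext ⟨i, k⟩ ⟨j, l⟩
    fin_cases i <;> fin_cases j <;> fin_cases k <;> fin_cases l <;>
      simp [s1, s2, s3, s4, s5, s6, s7, s8, s9, s10, e1, e2, m1, m2, ← mul_assoc, hδ]
  refine ⟨_, _, hx, ?_⟩
  have := congrFun (congrFun hq (0, 0)) (0, 0)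
  simp [mul_apply, Fintype.sum_prod_type, s1, s3, e1, m1] at this
  linear_combination this

theorem comm_form {δ : F} (h2 : (2 : F) ≠ 0) (hδ : δ * δ = 1)
    {x : Matrix (Fin 2 × Fin 2) (Fin 2 × Fin 2) F} (hs : G22 δ * x = xᵀ * G22 δ)
    (ha : x * j22 δ = j22 δ * x) (hq : x * x = 1) :
    (∃ a : F, x = a • 1) ∨
      ∃ a b c : F, x = !![a, b; c, -a] ⊗ₖ !![0, δ; 1, 0] ∧ a * a + b * c = δ := by
  obtain ⟨s1, s2, s3, s4, s5, s6, s7, s8, s9, s10⟩ := sa_entries h2 hδ hs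
  have m := fun i j => congrFun (congrFun ha i) j
  have m1 := m (0, 0) (0, 0); have m2 := m (0, 1) (0, 0)
  simp [j22, mul_apply, Fintype.sum_prod_type, -mul_eq_zero, -mul_eq_mul_left_iff,
    -mul_eq_mul_right_iff] at m1 m2
  have e1 : x (0, 0) (1, 1) = δ * x (0, 1) (1, 0) := by
    linear_combination -δ * s6 - x (0, 0) (1, 1) * hδ
  have e2 : x (1, 0) (0, 1) = δ * x (1, 1) (0, 0) := by
    linear_combination -δ * s5 - x (1, 0) (0, 1) * hδ
  have q := fun i j => congrFun (congrFun hq i) j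
  have q1 := q (0, 0) (0, 0); have q2 := q (0, 1) (0, 0); have q3 := q (0, 1) (1, 0)
  have q4 := q (1, 1) (0, 0)
  simp [mul_apply, Fintype.sum_prod_type, s1, s2, s3, s4, s7, s8, s9, s10, e1, e2, m1, m2,
    -mul_eq_zero] at q1 q2 q3 q4
  by_cases h0 : x (0, 0) (0, 0) = 0
  · refine Or.inr ⟨x (0, 1) (0, 0), x (0, 1) (1, 0), x (1, 1) (0, 0), ?_, ?_⟩
    · have hδ' : ∀ a, δ * (δ * a) = a := fun a => by rw [← mul_assoc, hδ, one_mul]
      ext ⟨i, k⟩ ⟨j, l⟩
      fin_cases i <;> fin_cases j <;> fin_cases k <;> fin_cases l <;>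
        simp [s1, s2, s3, s4, s7, s8, s9, s10, e1, e2, m1, m2, h0, mul_comm, hδ']
    · rw [h0] at q1
      linear_combination δ * q1 - (x (0, 1) (0, 0) * x (0, 1) (0, 0) +
        x (0, 1) (1, 0) * x (1, 1) (0, 0)) * hδ
  · have c2 : ∀ {a : F}, 2 * (x (0, 0) (0, 0) * a) = 0 → a = 0 := fun h =>
      (mul_eq_zero.1 ((mul_eq_zero.1 h).resolve_left h2)).resolve_left h0
    have f1 : x (0, 1) (0, 0) = 0 := c2 (by linear_combination q2)
    have f2 : x (0, 1) (1, 0) = 0 := c2 (by linear_combination q3)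
    have f3 : x (1, 1) (0, 0) = 0 := c2 (by linear_combination q4)
    refine Or.inl ⟨x (0, 0) (0, 0), ?_⟩
    ext ⟨i, k⟩ ⟨j, l⟩
    fin_cases i <;> fin_cases j <;> fin_cases k <;> fin_cases l <;>
      simp [s1, s2, s3, s4, s7, s8, s9, s10, e1, e2, m1, m2, f1, f2, f3]

/-- the self-adjoint involutions commuting with `j` up to sign -/
def T22 (F : Type*) [Field F] : Set (Matrix (Fin 2 × Fin 2) (Fin 2 × Fin 2) F) :=
  {x | G22 (-1) * x = xᵀ * G22 (-1) ∧ x * x = 1 ∧ PM x (j22 (-1))}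

theorem pm_T22 [Fintype F] (hF : Fintype.card F = 3) {x y : Matrix (Fin 2 × Fin 2) (Fin 2 × Fin 2) F}
    (hx : x ∈ T22 F) (hy : y ∈ T22 F) : PM x y := by
  have h2 := two_ne_zero_of_three hF
  have cl : ∀ x ∈ T22 F, (∃ a : F, x = a • 1) ∨
      (∃ a b c : F, x = !![a, b; c, -a] ⊗ₖ !![0, -1; 1, 0] ∧ a * a + b * c = -1) ∨
      ∃ a c : F, x = (1 : Matrix (Fin 2) (Fin 2) F) ⊗ₖ !![a, c; c, -a] ∧ a * a + c * c = 1 :=
    fun x hx => hx.2.2.elim (fun h => (comm_form h2 (by simp) hx.1 h hx.2.1).imp_right Or.inl)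
      fun h => Or.inr (Or.inr (by simpa using anti_form h2 (by simp) hx.1 h hx.2.1))
  have h1 : ∀ a c : F, PM !![0, -1; 1, 0] !![a, c; c, -a] := fun a c => Or.inr (by
    ext i j; fin_cases i <;> fin_cases j <;> simp)
  rcases cl x hx with ⟨a, rfl⟩ | ⟨a, b, c, rfl, h⟩ | ⟨a, c, rfl, h⟩
  · exact Or.inl (by simp)
  all_goals rcases cl y hy with ⟨a', rfl⟩ | ⟨a', b', c', rfl, h'⟩ | ⟨a', c', rfl, h'⟩
  · exact Or.inl (by simp)
  · exact (pm_q8 hF h h').kron (Or.inl rfl)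
  · exact PM.kron (Or.inl (by simp)) (h1 _ _)
  · exact Or.inl (by simp)
  · exact PM.kron (Or.inl (by simp)) (h1 _ _).symm
  · refine PM.kron (Or.inl rfl) ?_
    let ψ := (ZMod.ringEquivOfPrime F Nat.prime_three hF).symm
    have key : ∀ a c a' c' : ZMod 3, a * a + c * c = 1 → a' * a' + c' * c' = 1 →
      a * c' = c * a' ∨ a * a' + c * c' = 0 := by decide +kernel
    rcases key (ψ a) (ψ c) (ψ a') (ψ c') (by simpa using congrArg ψ h)
      (by simpa using congrArg ψ h') with k | k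
    · have k : a * c' = c * a' := ψ.injective (by simpa using k)
      left
      ext i j
      fin_cases i <;> fin_cases j <;> simp
      exacts [by ring, by linear_combination 2 * k, by linear_combination -2 * k, by ring]
    · have k : a * a' + c * c' = 0 := ψ.injective (by simpa using k)
      right
      ext i j
      fin_cases i <;> fin_cases j <;> simp
      exacts [by linear_combination 2 * k, by ring, by ring, by linear_combination 2 * k]

theorem mem_T22 {a b c : F} (h : a * a + b * c = -1) :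
    !![a, b; c, -a] ⊗ₖ !![0, -1; 1, 0] ∈ T22 F := by
  refine ⟨?_, ?_, PM.kron (Or.inl (by simp)) (Or.inl rfl)⟩
  · rw [G22, transpose_kron, ← mul_kronecker_mul, ← mul_kronecker_mul]
    ext ⟨i, k⟩ ⟨j, l⟩
    fin_cases i <;> fin_cases j <;> fin_cases k <;> fin_cases l <;> simp [mul_apply]
  · rw [← mul_kronecker_mul]
    ext ⟨i, k⟩ ⟨j, l⟩
    fin_cases i <;> fin_cases j <;> fin_cases k <;> fin_cases l <;> simp <;>
      first | linear_combination -h | ring

theorem mem_T22' {a c : F} (h : a * a + c * c = 1) :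
    (1 : Matrix (Fin 2) (Fin 2) F) ⊗ₖ !![a, c; c, -a] ∈ T22 F := by
  refine ⟨?_, ?_, PM.kron (Or.inl rfl) (Or.inr ?_)⟩
  · rw [G22, transpose_kron, ← mul_kronecker_mul, ← mul_kronecker_mul]
    ext ⟨i, k⟩ ⟨j, l⟩
    fin_cases i <;> fin_cases j <;> fin_cases k <;> fin_cases l <;> simp [mul_apply]
  · rw [← mul_kronecker_mul]
    ext ⟨i, k⟩ ⟨j, l⟩
    fin_cases i <;> fin_cases j <;> fin_cases k <;> fin_cases l <;> simp <;>
      first | linear_combination h | ring
  · ext i j; fin_cases i <;> fin_cases j <;> simp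

set_option maxHeartbeats 1600000 in
theorem top_T22 [Fintype F] (hF : Fintype.card F = 3)
    (A : Subalgebra F (Matrix (Fin 2 × Fin 2) (Fin 2 × Fin 2) F))
    (hA : ∀ x ∈ T22 F, ∀ y ∈ T22 F, x * y = -(y * x) → x * y ∈ A) : A = ⊤ := by
  have h2 := two_ne_zero_of_three hF
  have h3 := three_eq_zero hF
  have t1 := mem_T22 (F := F) (a := 0) (b := 1) (c := -1) (by simp)
  have t2 := mem_T22 (F := F) (a := 1) (b := 1) (c := 1) (by linear_combination h3)
  have t3 := mem_T22 (F := F) (a := 1) (b := -1) (c := -1) (by linear_combination h3)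
  have s0 := mem_T22' (F := F) (a := 1) (c := 0) (by simp)
  have s1 := mem_T22' (F := F) (a := 0) (c := 1) (by simp)
  have key : ∀ {a b c d : Matrix (Fin 2) (Fin 2) F}, a ⊗ₖ b ∈ T22 F → c ⊗ₖ d ∈ T22 F →
      (a * c) ⊗ₖ (b * d) = -((c * a) ⊗ₖ (d * b)) → ∀ (l : F) (z), z = l • ((a * c) ⊗ₖ (b * d)) →
      z ∈ A := fun h h' h1 l z hz => by
    rw [hz]
    refine A.smul_mem ?_ l
    rw [mul_kronecker_mul] at h1 ⊢
    exact hA _ h _ h' (by rw [h1, mul_kronecker_mul])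
  have hL : ∀ a, a ⊗ₖ (1 : Matrix (Fin 2) (Fin 2) F) ∈ A := mem_of_two' h2 (kronL _ _ F)
    (key t1 t3 ?_ 1 _ ?_) (key t1 t2 ?_ (-1) _ ?_)
  · let ρ := psiL (Equiv.prodComm (Fin 2) (Fin 2)) (1 : GL (Fin 2 × Fin 2) F)
    have hρ : ∀ b, ρ b = 1 ⊗ₖ b := fun b => (tr_swap (Equiv.refl _) 1 1 b).trans (cj_one _)
    refine eq_top_of_kron A hL fun b => hρ b ▸ mem_of_two h2 ρ ?_ ?_ b
    · have := mul_mem (hL !![0, -1; 1, 0])
        (key s1 t1 ?_ 1 (!![0, 1; -1, 0] ⊗ₖ !![1, 0; 0, -1]) ?_)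
      · rwa [← mul_kronecker_mul, one_mul, show !![(0 : F), -1; 1, 0] * !![0, 1; -1, 0] = 1 by
          ext i j; fin_cases i <;> fin_cases j <;> simp, ← hρ] at this
      all_goals
        ext ⟨i, k⟩ ⟨j, l⟩
        fin_cases i <;> fin_cases j <;> fin_cases k <;> fin_cases l <;> simp
    · have := mul_mem (hL !![0, -1; 1, 0])
        (key s0 t1 ?_ (-1) (!![0, 1; -1, 0] ⊗ₖ !![0, 1; 1, 0]) ?_)
      · rwa [← mul_kronecker_mul, one_mul, show !![(0 : F), -1; 1, 0] * !![0, 1; -1, 0] = 1 by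
          ext i j; fin_cases i <;> fin_cases j <;> simp, ← hρ] at this
      all_goals
        ext ⟨i, k⟩ ⟨j, l⟩
        fin_cases i <;> fin_cases j <;> fin_cases k <;> fin_cases l <;> simp
  all_goals
    try rw [kronL_apply]
    ext ⟨i, k⟩ ⟨j, l⟩
    fin_cases i <;> fin_cases j <;> fin_cases k <;> fin_cases l <;> simp

end Coord

namespace SF

variable (S : SF ι F)

theorem exists_pull_of_gram {κ : Type} [Fintype κ] [DecidableEq κ] (e : ι ≃ κ) (b : κ → ι → F)
    {G : Matrix κ κ F} (hG : G.det ≠ 0) (h : ∀ k l, S.f (b k) (b l) = G k l) :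
    ∃ P : GL ι F, (∀ z : κ → F, (P : Matrix ι ι F) *ᵥ (z ∘ e) = ∑ l, z l • b l) ∧
      ((S.pull e P).G : Matrix κ κ F) = G := by
  let M : Matrix ι ι F := of fun i j => b (e j) i
  have hM : ∀ z : κ → F, M *ᵥ (z ∘ e) = ∑ l, z l • b l := fun z => by
    ext i
    rw [Finset.sum_apply, ← e.sum_comp]
    simp [M, mulVec, dotProduct, mul_comm]
  have hb : ∀ k, M *ᵥ (Pi.single k 1 ∘ e) = b k := fun k => by
    rw [hM, Finset.sum_eq_single k (fun l _ hl => by simp [hl]) (by simp)]; simp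
  have h1 : Mᵀ * (S.G : Matrix ι ι F) * M.map S.σ = G.submatrix e e := by
    ext i j
    rw [← gform_single S.σ (Mᵀ * _ * _), ← gform_mulVec, submatrix_apply, ← h, ← hb, ← hb, f]
    congr 2 <;> ext x <;> simp [Pi.single_apply]
  have h2 : IsUnit M := by
    rw [Matrix.isUnit_iff_isUnit_det, isUnit_iff_ne_zero]
    intro h0
    have := congrArg det h1
    rw [det_mul, det_mul, det_transpose, h0, zero_mul, zero_mul, det_submatrix_equiv_self] at this
    exact hG this.symm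
  refine ⟨h2.unit, hM, ?_⟩
  ext k l
  rw [← h, ← hb, ← hb]
  exact (gform_single S.σ _ k l).symm.trans (S.pull_f e h2.unit _ _)

theorem exists_j_ne (h2 : (2 : F) ≠ 0) (hσ : ∀ a, S.σ a = a) (hA : ∀ v, S.f v v = 0)
    {j : Matrix ι ι F} {δ : F} (hδ : δ ≠ 0) (hj : j * j = δ • 1) (hs : S.st j = -j)
    {W : Submodule F (ι → F)} (h0 : W ≠ ⊥) (hW : IsNondegenerateOn S.f W)
    (hi : ∀ x ∈ W, j *ᵥ x ∈ W) : ∃ u ∈ W, S.f u (j *ᵥ u) ≠ 0 := by
  obtain ⟨x, hx, hx0⟩ := Submodule.exists_mem_ne_zero_of_ne_bot h0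
  obtain ⟨y, hy, hxy⟩ := (hW _ (hi x hx) fun h => hx0 (by
    have := congrArg (j *ᵥ ·) h
    simp only [mulVec_mulVec, hj, smul_mulVec, one_mulVec, mulVec_zero] at this
    exact (smul_eq_zero.1 this).resolve_left hδ)).1
  by_contra hn
  push Not at hn
  have := hn _ (add_mem hx hy)
  rw [mulVec_add, add_left, add_right, add_right, hn x hx, hn y hy, S.adj_right j x y, hs,
    neg_mulVec, neg_left, (S.isSymplecticForm hσ hA).skew (j *ᵥ x)] at this
  exact hxy ((mul_eq_zero.1 (show 2 * S.f y (j *ᵥ x) = 0 by linear_combination this)).resolve_left h2)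

theorem exists_coord4 [Fintype F] (hF : Fintype.card F = 3) (hn : Fintype.card ι = 4)
    (hσ : ∀ a, S.σ a = a) (hA : ∀ v, S.f v v = 0) {j : Matrix ι ι F} {δ : F} (hδ : δ * δ = 1)
    (hj : j * j = δ • 1) (hs : S.st j = -j) :
    ∃ (e : ι ≃ Fin 2 × Fin 2) (P : GL ι F), ((S.pull e P).G : Matrix _ _ F) = G22 δ ∧
      j = tr e P (j22 δ) := by
  have h2 := two_ne_zero_of_three hF
  have h3 := three_eq_zero hF
  have hδ0 : δ ≠ 0 := by rintro rfl; simp at hδ
  have : Nonempty ι := Fintype.card_pos_iff.1 (by omega)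
  have hsk := (S.isSymplecticForm hσ hA).skew
  have hjj : ∀ x, j *ᵥ (j *ᵥ x) = δ • x := fun x => by
    rw [mulVec_mulVec, hj, smul_mulVec, one_mulVec]
  obtain ⟨u, -, hu⟩ := S.exists_j_ne h2 hσ hA hδ0 hj hs top_ne_bot S.nondeg_top fun _ _ => trivial
  let W := Submodule.span F {u, j *ᵥ u}
  have hWi : ∀ x ∈ W, j *ᵥ x ∈ W := fun x hx => by
    obtain ⟨a, b, rfl⟩ := Submodule.mem_span_pair.1 hx
    rw [mulVec_add, mulVec_smul, mulVec_smul, hjj, smul_smul, add_comm]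
    exact Submodule.mem_span_pair.2 ⟨_, _, rfl⟩
  have hu1 : u ∈ W := Submodule.subset_span (by simp)
  have hW : IsNondegenerateOn S.f W := S.isNondegenerateOn_iff.2 (eq_bot_iff.2 fun x hx => by
    obtain ⟨a, b, rfl⟩ := Submodule.mem_span_pair.1 hx.1
    have k1 := S.mem_perp.1 hx.2 _ hu1
    have k2 := S.mem_perp.1 hx.2 _ (hWi _ hu1)
    simp only [add_left, smul_left, hA, hsk (j *ᵥ u) u, mul_zero, zero_add, add_zero, mul_neg,
      neg_eq_zero, mul_eq_zero, hu, or_false] at k1 k2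
    simp [k1, k2])
  have hWp : ∀ x ∈ S.perp W, j *ᵥ x ∈ S.perp W := fun x hx =>
    S.mulVec_mem_perp (fun w hw => by rw [hs, neg_mulVec]; exact neg_mem (hWi w hw)) hx
  obtain ⟨x, hx, hx0⟩ := S.exists_j_ne h2 hσ hA hδ0 hj hs (W := S.perp W) (fun h => by
    have k1 := S.finrank_perp_add W
    have k2 : finrank F W ≤ 2 := by
      have := finrank_range_le_card (R := F) ![u, j *ᵥ u]
      rwa [Set.finrank, Matrix.range_cons_cons_empty] at this
    rw [h, finrank_bot] at k1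
    omega) (S.nondeg_perp hW) hWp
  obtain ⟨y, hy, hyu⟩ : ∃ y ∈ S.perp W, S.f y (j *ᵥ y) = -S.f u (j *ᵥ u) := by
    rcases mul_self_eq_mul_self_iff.1 ((sq_eq_one_of_card_three hF hx0).trans
      (sq_eq_one_of_card_three hF hu).symm) with h | h
    swap
    · exact ⟨x, hx, h⟩
    rcases mul_self_eq_one_iff.1 hδ with rfl | rfl
    · exact ⟨j *ᵥ x, hWp x hx, by rw [hjj, one_smul, hsk, h]⟩
    · refine ⟨x + j *ᵥ x, add_mem hx (hWp x hx), ?_⟩
      rw [mulVec_add, hjj, neg_one_smul]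
      simp only [add_left, add_right, neg_right, hA, hsk (j *ᵥ x) x, h]
      linear_combination S.f u (j *ᵥ u) * h3
  set c := S.f u (j *ᵥ u) with hc
  have hcc := sq_eq_one_of_card_three hF hu
  have k1 := S.mem_perp.1 hy _ hu1
  have k2 := S.mem_perp.1 hy _ (hWi _ hu1)
  have k3 := S.mem_perp.1 (hWp y hy) _ hu1
  have k4 := S.mem_perp.1 (hWp y hy) _ (hWi _ hu1)
  let b : Fin 2 × Fin 2 → ι → F := fun p => !![u + y, j *ᵥ u + j *ᵥ y;
    c • (j *ᵥ y - j *ᵥ u), (c * δ) • (y - u)] p.1 p.2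
  let e : ι ≃ Fin 2 × Fin 2 := Fintype.equivOfCardEq (by simpa using hn)
  obtain ⟨P, hP, hG⟩ := S.exists_pull_of_gram e b (G := G22 δ) (by
    simp [G22, det_kronecker, hδ0]) (by
    rintro ⟨i, k⟩ ⟨i', k'⟩
    fin_cases i <;> fin_cases i' <;> fin_cases k <;> fin_cases k' <;>
      simp [b, G22, add_left, add_right, sub_left, sub_right, smul_left, smul_right, hσ, hA, hyu, ← hc,
        k1, k2, k3, k4, hsk (j *ᵥ u) u, hsk (j *ᵥ y) y, hsk u y, hsk u (j *ᵥ y), hsk (j *ᵥ u) y,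
        hsk (j *ᵥ u) (j *ᵥ y), -mul_eq_zero]
    all_goals first
      | linear_combination -2 * hcc - h3
      | linear_combination 2 * δ * hcc + δ * h3
      | linear_combination 2 * hcc + h3
      | linear_combination -2 * δ * hcc - δ * h3)
  refine ⟨e, P, hG, ?_⟩
  obtain ⟨z, hz⟩ := (tr e P).surjective j
  rw [← hz]
  congr 1
  ext l k
  have : z *ᵥ Pi.single k 1 = j22 δ *ᵥ Pi.single k 1 := coord_injective e P (by
    rw [← tr_mulVec, hz, hP, hP, Finset.sum_eq_single k (fun l _ hl => by simp [hl]) (by simp)]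
    obtain ⟨i, k⟩ := k
    fin_cases i <;> fin_cases k <;>
      simp [b, j22, Fintype.sum_prod_type, mulVec_add, mulVec_sub, mulVec_smul, hjj, smul_sub,
        smul_smul, mul_comm, hδ, mul_left_comm])
  simpa using congrFun this l

theorem C2t.exists_j {S : SF ι F} {H : Subgroup (GL ι F)} (h : S.C2t H) :
    ∃ j : Matrix ι ι F, j * j = 1 ∧ S.st j = -j ∧ ∀ h ∈ H, cj h j = j ∨ cj h j = -j := by
  obtain ⟨k, D, -, hD, ht, hle⟩ := h
  have hc : IsCompl (D 0) (D 1) := ⟨hD.indep.pairwiseDisjoint zero_ne_one, codisjoint_iff.2 (by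
    rw [eq_top_iff, ← hD.iSup_eq_top]
    exact iSup_le fun i => by fin_cases i; exacts [le_sup_left, le_sup_right])⟩
  let p := (D 0).projection (D 1) hc
  let j := LinearMap.toMatrix' (p + p - LinearMap.id)
  have h0 : ∀ x ∈ D 0, j *ᵥ x = x := fun x hx => by
    simp [j, LinearMap.toMatrix'_mulVec, p, Submodule.projection_apply_of_mem_left hc hx, -map_sub]
  have h1 : ∀ x ∈ D 1, j *ᵥ x = -x := fun x hx => by
    simp [j, LinearMap.toMatrix'_mulVec, p, (Submodule.projection_apply_eq_zero_iff hc).2 hx,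
      -map_sub]
  have hv : ∀ v, ∃ x ∈ D 0, ∃ y ∈ D 1, x + y = v := fun v =>
    Submodule.mem_sup.1 (hc.sup_eq_top ▸ Submodule.mem_top)
  refine ⟨j, ext_mulVec fun v => ?_, (S.eq_st fun u v => ?_).symm, fun h hh => ?_⟩
  · obtain ⟨x, hx, y, hy, rfl⟩ := hv v
    simp only [← mulVec_mulVec, mulVec_add, mulVec_neg, h0 x hx, h1 y hy, neg_neg, one_mulVec]
  · obtain ⟨x, hx, y, hy, rfl⟩ := hv u
    obtain ⟨x', hx', y', hy', rfl⟩ := hv v
    simp only [neg_mulVec, mulVec_add, h0 _ hx, h1 _ hy, h0 _ hx', h1 _ hy', add_left, add_right,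
      neg_left, neg_right, ht 0 x hx x' hx', ht 1 y hy y' hy']
    ring
  · obtain ⟨τ, hτ⟩ := hle hh
    have h01 : τ 0 ≠ τ 1 := τ.injective.ne zero_ne_one
    rw [cj_eq_iff, cj_eq_iff]
    have key : ∀ i : Fin 2, i = 0 ∨ i = 1 := by decide
    rcases key (τ 0) with a | a <;> rcases key (τ 1) with b | b
    · exact absurd (a.trans b.symm) h01
    · refine Or.inl (ext_mulVec fun v => ?_)
      obtain ⟨x, hx, y, hy, rfl⟩ := hv v
      simp only [← mulVec_mulVec, mulVec_add, mulVec_neg, h0 x hx, h1 y hy,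
        h0 _ (a ▸ mulVec_mem_of_map_eq (hτ 0) hx), h1 _ (b ▸ mulVec_mem_of_map_eq (hτ 1) hy)]
    · refine Or.inr (ext_mulVec fun v => ?_)
      obtain ⟨x, hx, y, hy, rfl⟩ := hv v
      simp only [← mulVec_mulVec, mulVec_add, mulVec_neg, neg_mulVec, h0 x hx, h1 y hy, neg_neg,
        h1 _ (a ▸ mulVec_mem_of_map_eq (hτ 0) hx), h0 _ (b ▸ mulVec_mem_of_map_eq (hτ 1) hy)]
    · exact absurd (a.trans b.symm) h01

theorem SpC3u.exists_j [Nonempty ι] {S : SF ι F} {H : Subgroup (GL ι F)} (h : S.SpC3u H)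
    (h2 : (2 : F) ≠ 0) (hσ : ∀ a, S.σ a = a) (hH : H ≤ S.Isom) :
    ∃ (j : Matrix ι ι F) (δ : F), δ ≠ 0 ∧ j * j = δ • 1 ∧ S.st j = -j ∧
      ∀ h ∈ H, cj h j = j ∨ cj h j = -j := by
  obtain ⟨K, hK, hC, hs, hle⟩ := h
  rw [isSelfAdjointFor_iff] at hs
  rw [isAdjointClosedFor_iff] at hC
  push Not at hs
  obtain ⟨x, hx, hxs⟩ := hs
  obtain ⟨j, hj, hj0, hjs⟩ : ∃ j ∈ K, j ≠ 0 ∧ S.st j = -j :=
    ⟨x - S.st x, sub_mem hx (hC x hx), sub_ne_zero.2 hxs.symm, by rw [st_sub, st_st, neg_sub]⟩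
  have h20 : ∀ y : Matrix ι ι F, y = -y → y = 0 := fun y hy => by
    rwa [eq_neg_iff_add_eq_zero, ← two_smul F, smul_eq_zero_iff_right h2] at hy
  have hns : ∀ c : F, c • (1 : Matrix ι ι F) ≠ j := by
    rintro c rfl
    exact hj0 (h20 _ (by rw [← hjs, st_smul_one, hσ]))
  obtain ⟨δ, b, hδ⟩ := H12.A.exists_comb hK hj hns (mul_mem hj hj)
  have hb : b • j = 0 := h20 _ (by
    have := congrArg S.st hδ
    rw [st_mul, hjs, neg_mul_neg, ← hδ, st_add, st_smul_one, st_smul, hσ, hσ, hjs, smul_neg] at this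
    exact (add_left_cancel this).symm)
  rw [hb, add_zero] at hδ
  have hδ0 : δ ≠ 0 := by
    rintro rfl
    obtain ⟨y, -, hy⟩ := hK.inv j hj hj0
    exact hj0 (by rw [← mul_one j, ← hy, ← mul_assoc, ← hδ, zero_smul, zero_mul])
  refine ⟨j, δ, hδ0, hδ.symm, hjs, fun h hh => ?_⟩
  obtain ⟨a, c, hc⟩ := H12.A.exists_comb hK hj hns (nrm_subalgebraNormalizer K h (hle hh) j hj)
  have ha : a • (1 : Matrix ι ι F) = 0 := h20 _ (by
    have := congrArg S.st hc
    rw [S.st_cj (hH hh), hjs, map_neg, ← hc, st_add, st_smul_one, st_smul, hσ, hσ, hjs, smul_neg,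
      neg_add] at this
    exact add_right_cancel this)
  rw [ha, zero_add] at hc
  have h3 : (c * c * δ) • (1 : Matrix ι ι F) = δ • 1 := by
    rw [mul_smul, hδ, ← smul_mul_smul_comm, hc, ← map_mul, ← hδ, map_smul, map_one]
  rcases mul_self_eq_one_iff.1 (mul_right_cancel₀ hδ0 ((smul_left_injective F one_ne_zero h3).trans
    (one_mul δ).symm)) with rfl | rfl
  · exact Or.inl (by rw [← hc, one_smul])
  · exact Or.inr (by rw [← hc, neg_one_smul])

theorem spEx4 [Fintype F] (hσ : ∀ a, S.σ a = a) (hA : ∀ v, S.f v v = 0)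
    {H : Subgroup (GL ι F)} (hH : H ≤ S.Isom) : S.SpEx4 H := by
  intro hn hF h
  have : Nontrivial ι := Fintype.one_lt_card_iff_nontrivial.1 (by omega)
  have h2 := two_ne_zero_of_three hF
  by_cases hI : Irr H
  swap
  · rcases S.red_cases (hH.trans S.isom_le_sim) hI with h | h | h <;>
      simp only [h, true_or, or_true]
  obtain ⟨j, δ, hδ, hj, hs, hN⟩ : ∃ (j : Matrix ι ι F) (δ : F), δ ≠ 0 ∧ j * j = δ • 1 ∧
      S.st j = -j ∧ ∀ h ∈ H, cj h j = j ∨ cj h j = -j := by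
    rcases h with h | h
    · obtain ⟨j, a, b⟩ := h.exists_j
      exact ⟨j, 1, one_ne_zero, by rw [a, one_smul], b⟩
    · exact h.exists_j h2 hσ hH
  have hδ' := sq_eq_one_of_card_three hF hδ
  obtain ⟨e, P, hG, rfl⟩ := S.exists_coord4 hF hn hσ hA hδ' hj hs
  have hsa : ∀ x, S.st (tr e P x) = tr e P x ↔ G22 δ * x = xᵀ * G22 δ := fun x => by
    rw [S.st_tr, (tr e P).injective.eq_iff, ← hG, ← (S.pull e P).G_mul_st hσ,
      (S.pull e P).G.isUnit.mul_right_inj, eq_comm]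
  have hNj : ∀ h ∈ H, ∃ ε : F, ∀ x, cj h x * tr e P (j22 δ) = ε • cj h (x * tr e P (j22 δ)) ∧
      tr e P (j22 δ) * cj h x = ε • cj h (tr e P (j22 δ) * x) := fun h hh => by
    rcases hN h hh with a | a
    · exact ⟨1, fun x => by simp [a]⟩
    · exact ⟨-1, fun x => by simp [a]⟩
  rcases mul_self_eq_one_iff.1 hδ' with rfl | rfl
  · set s := tr e P ((1 : Matrix (Fin 2) (Fin 2) F) ⊗ₖ !![1, 0; 0, -1]) with hsd
    have k1 : S.st s = s := (hsa _).2 (by
      rw [G22, transpose_kron, ← mul_kronecker_mul, ← mul_kronecker_mul]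
      ext ⟨i, k⟩ ⟨j, l⟩
      fin_cases i <;> fin_cases j <;> fin_cases k <;> fin_cases l <;> simp [mul_apply])
    have k2 : s * s = 1 := by
      rw [← map_mul, ← mul_kronecker_mul, ← map_one (tr e P), ← one_kronecker_one, one_mul]
      congr 2
      ext i j; fin_cases i <;> fin_cases j <;> simp
    have k3 : s * tr e P (j22 1) = -(tr e P (j22 1) * s) := by
      rw [← map_mul, ← map_mul, ← map_neg, j22, ← mul_kronecker_mul, ← mul_kronecker_mul]
      congr 1
      ext ⟨i, k⟩ ⟨j, l⟩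
      fin_cases i <;> fin_cases j <;> fin_cases k <;> fin_cases l <;> simp
    have k4 : ∀ h ∈ H, cj h s = s ∨ cj h s = -s := fun h hh => by
      obtain ⟨x, hx⟩ := (tr e P).surjective (cj h s)
      obtain ⟨ε, hε⟩ := hNj h hh
      obtain ⟨a, c, rfl, hac⟩ := anti_form h2 (mul_one 1) (x := x)
        ((hsa x).1 (by rw [hx, S.st_cj (hH hh), k1])) ((tr e P).injective (by
          rw [map_neg, map_mul, map_mul, hx, (hε s).1, (hε s).2, k3, map_neg, smul_neg]))
        ((tr e P).injective (by rw [map_mul, hx, ← map_mul, k2, map_one, map_one]))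
      have h3 := three_eq_zero hF
      obtain rfl : c = 0 := by
        by_contra hc
        rw [sq_eq_one_of_card_three hF hc] at hac
        by_cases ha : a = 0
        · exact h2 (by rw [ha] at hac; linear_combination -hac)
        · exact one_ne_zero (α := F) (by
            rw [sq_eq_one_of_card_three hF ha] at hac; linear_combination -hac)
      rw [← hx, hsd, ← map_neg]
      rcases mul_self_eq_one_iff.1 (show a * a = 1 by simpa using hac) with rfl | rfl
      · exact Or.inl (by simp)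
      · refine Or.inr (congrArg _ ?_)
        ext ⟨i, k⟩ ⟨j, l⟩
        fin_cases i <;> fin_cases j <;> fin_cases k <;> fin_cases l <;> simp
    have hj0 : ∀ c : F, c * c = 1 → s ≠ c • 1 := fun c hc h => by
      have := congrArg (· * tr e P (j22 1)) k3
      simp only [h, smul_mul_assoc, mul_smul_comm, one_mul, mul_one, neg_mul, hj, one_smul] at this
      rw [eq_neg_iff_add_eq_zero, ← two_smul F, smul_smul, smul_eq_zero_iff_left one_ne_zero]
        at this
      exact mul_ne_zero h2 (by rintro rfl; simp at hc) this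
    let p : Matrix ι ι F := (2⁻¹ : F) • (1 + s)
    have hp : 1 - p = (2⁻¹ : F) • (1 - s) := by
      rw [sub_eq_iff_eq_add, ← smul_add, sub_add_add_cancel, ← two_smul F, smul_smul,
        inv_mul_cancel₀ h2, one_smul]
    have p1 : p * (1 - p) = 0 := by
      rw [hp, smul_mul_smul_comm, add_mul, mul_sub s, k2]; simp
    have p2 : p * p = p := by rw [mul_sub, mul_one, sub_eq_zero] at p1; exact p1.symm
    have p3 : (1 - p) * p = 0 := by rw [sub_mul, one_mul, p2, sub_self]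
    have p4 : (1 - p) * (1 - p) = 1 - p := by rw [mul_sub, p3, mul_one, sub_zero]
    have p5 : S.st p = p := by rw [st_smul, st_add, st_one, k1, hσ]
    obtain ⟨t, k, D, a, b, -⟩ := S.decomp_of_idem hI {0, p, 1 - p}
      (by rintro _ (rfl | rfl | rfl); exacts [mul_zero _, p2, p4])
      (by rintro _ (rfl | rfl | rfl); exacts [S.st_zero, p5, by rw [st_sub, st_one, p5]])
      (by rintro _ (rfl | rfl | rfl) _ (rfl | rfl | rfl) <;> simp only [mul_zero, zero_mul, p1, p3])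
      (by rintro _ (rfl | rfl | rfl) _ (rfl | rfl | rfl) <;>
        simp only [mul_zero, zero_mul, p1, p2, p3, p4, Set.mem_insert_iff, Set.mem_singleton_iff,
          true_or, or_true])
      (fun h hh => by
        have : cj h p = p ∨ cj h p = 1 - p := (k4 h hh).imp
          (fun a => by rw [map_smul, map_add, map_one, a])
          fun a => by rw [map_smul, map_add, map_one, a, hp, sub_eq_add_neg]
        rintro _ (rfl | rfl | rfl) <;> rcases this with a | a <;> simp [a])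
      (e₀ := p) (by simp) (fun h => hj0 (-1) (by simp) (by
        rw [smul_eq_zero_iff_right (inv_ne_zero h2)] at h
        rw [neg_one_smul, eq_neg_iff_add_eq_zero, add_comm, h]))
      (fun h => hj0 1 (by simp) (by
        rw [← sub_eq_zero, ← neg_eq_zero, neg_sub, hp,
          smul_eq_zero_iff_right (inv_ne_zero h2), sub_eq_zero] at h
        rw [one_smul, h]))
    exact Or.inr (Or.inr (Or.inl ⟨t, k, D, a, b⟩))
  · have hT : ∀ h ∈ H, ∀ x ∈ T22 F, ∃ y ∈ T22 F, tr e P y = cj h (tr e P x) := fun h hh x hx => by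
      obtain ⟨y, hy⟩ := (tr e P).surjective (cj h (tr e P x))
      obtain ⟨ε, hε⟩ := hNj h hh
      refine ⟨y, ⟨(hsa y).1 (by rw [hy, S.st_cj (hH hh), (hsa x).2 hx.1]), (tr e P).injective (by
        rw [map_mul, hy, ← map_mul, ← map_mul, hx.2.1, map_one, map_one]),
        (hx.2.2.map (tr e P)).imp (fun a => (tr e P).injective ?_) fun a => (tr e P).injective ?_⟩, hy⟩
      · rw [map_mul, map_mul, hy, (hε _).1, (hε _).2, a]
      · rw [map_neg, map_mul, map_mul, hy, (hε _).1, (hε _).2, a, map_neg, smul_neg]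
    refine Or.inr (Or.inr (Or.inr (S.sp_c6_of_set h2 hσ hA hH
      {z | ∃ x ∈ T22 F, ∃ y ∈ T22 F, x * y = -(y * x) ∧ z = tr e P (x * y)} ?_ ?_ ?_ ?_ ?_)))
    · rintro _ ⟨x, hx, y, hy, h, rfl⟩
      rw [map_mul, st_mul, (hsa x).2 hx.1, (hsa y).2 hy.1, ← map_mul, ← map_mul, h, map_neg, neg_neg]
    · rintro _ ⟨x, hx, y, hy, h, rfl⟩
      rw [← map_mul, ← map_one (tr e P), ← map_neg]
      congr 1
      nth_rw 1 [h]
      rw [neg_mul, mul_assoc, ← mul_assoc x, hx.2.1, one_mul, hy.2.1]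
    · rintro _ ⟨x, hx, y, hy, -, rfl⟩ _ ⟨x', hx', y', hy', -, rfl⟩
      exact (((pm_T22 hF hx hx').mul_right (pm_T22 hF hx hy')).mul_left
        ((pm_T22 hF hy hx').mul_right (pm_T22 hF hy hy'))).map (tr e P)
    · rintro h hh _ ⟨x, hx, y, hy, a, rfl⟩
      obtain ⟨x', hx', b⟩ := hT h hh x hx
      obtain ⟨y', hy', c⟩ := hT h hh y hy
      refine ⟨x', hx', y', hy', (tr e P).injective ?_, by rw [map_mul, map_mul, map_mul, b, c]⟩
      rw [map_neg, map_mul, map_mul, b, c, ← map_mul, ← map_mul, ← map_mul, ← map_mul, a, map_neg,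
        map_neg]
    · have := top_T22 hF ((Algebra.adjoin F {z | ∃ x ∈ T22 F, ∃ y ∈ T22 F, x * y = -(y * x) ∧
        z = tr e P (x * y)}).comap (tr e P).toAlgHom) fun x hx y hy h =>
          Algebra.subset_adjoin ⟨x, hx, y, hy, h, rfl⟩
      refine eq_top_iff.2 fun x _ => ?_
      obtain ⟨y, rfl⟩ := (tr e P).surjective x
      exact (this ▸ Algebra.mem_top : y ∈ Subalgebra.comap _ _)

end SF

end H28.AF
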