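import Cfsg.Agent.Lib.AschF.URow

/-!
Maximal subgroups of symplectic groups: the list of cases.
-/

set_option autoImplicit false
set_option linter.unusedSectionVars false

namespace H28.AF

open Matrix Cfsg Cfsg.Geo H10.Asch Module
open scoped MatrixGroups Kronecker commutatorElement

variable {ι : Type} [Fintype ι] [DecidableEq ι] {F : Type*} [Field F]

theorem eq_zero_or_one_of_card_two [Fintype F] (hF : Fintype.card F = 2) (a : F) : a = 0 ∨ a = 1 := by
  by_cases h : a = 0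
  · exact Or.inl h
  · have := FiniteField.pow_card_sub_one_eq_one a h
    rw [hF] at this
    exact Or.inr (by simpa using this)

namespace SF

variable (S : SF ι F)

/-- a hyperbolic pair in a non-degenerate plane -/
theorem exists_hyp_pair (hA : ∀ v, S.f v v = 0) {W : Submodule F (ι → F)}
    (hW : IsNondegenerateOn S.f W) (h2 : finrank F W = 2) :
    ∃ a ∈ W, ∃ b ∈ W, S.f a b = 1 ∧ ∀ u ∈ W, ∃ x y : F, u = x • a + y • b := by
  obtain ⟨b, hb, hb0⟩ := Submodule.exists_mem_ne_zero_of_ne_bot (p := W) (by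
    rintro rfl; simp at h2)
  obtain ⟨x, hx, hxb⟩ := (hW b hb hb0).1
  refine ⟨(S.f x b)⁻¹ • x, W.smul_mem _ hx, b, hb, by rw [smul_left, inv_mul_cancel₀ hxb], ?_⟩
  have hli : LinearIndependent F ![(S.f x b)⁻¹ • x, b] := by
    rw [LinearIndependent.pair_iff]
    intro s t hst
    have h4 := congrArg (S.f · b) hst
    simp only [add_left, smul_left, hA, inv_mul_cancel₀ hxb, zero_left, mul_one, mul_zero,
      add_zero] at h4
    rw [h4, zero_smul, zero_add] at hst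
    exact ⟨h4, (smul_eq_zero.1 hst).resolve_right hb0⟩
  have hsp : Submodule.span F (Set.range ![(S.f x b)⁻¹ • x, b]) = W :=
    Submodule.eq_of_le_of_finrank_le
      (Submodule.span_le.2 (by rintro _ ⟨i, rfl⟩; fin_cases i; exacts [W.smul_mem _ hx, hb]))
      (by rw [finrank_span_eq_card hli, h2]; simp)
  intro u hu
  rw [← hsp, Matrix.range_cons_cons_empty, Submodule.mem_span_pair] at hu
  obtain ⟨s, t, rfl⟩ := hu
  exact ⟨s, t, rfl⟩

/-- over the field with two elements a decomposition into planes defines a quadratic form -/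
theorem spC8_of_planes [Fintype F] (hF : Fintype.card F = 2) (hσ : ∀ a, S.σ a = a)
    (hA : ∀ v, S.f v v = 0) {t : ℕ} {D : Fin t → Submodule F (ι → F)}
    (hD : IsNondegenerateMDecomposition S.f 2 D) {H : Subgroup (GL ι F)} (hH : H ≤ S.Isom)
    (hle : H ≤ decompositionStabilizer D) : S.SpC8 H := by
  classical
  have h2 : (2 : F) = 0 := by
    by_contra h
    exact absurd (hF ▸ two_ne_zero_iff_odd_card.1 h) (by decide)
  choose a ha b hb hab hsp using fun i =>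
    S.exists_hyp_pair hA (hD.nondegenerate i) (hD.decomp.finrank_eq i)
  have hs := S.symm_two h2 hσ
  have key : ∀ i v, S.f v (a i) * S.f v (b i) + S.f v (a i) ^ 2 + S.f v (b i) ^ 2 =
      if v ∈ S.perp (D i) then 0 else 1 := fun i v => by
    split_ifs with h
    · rw [S.mem_perp.1 h _ (ha i), S.mem_perp.1 h _ (hb i)]; simp
    · rcases eq_zero_or_one_of_card_two hF (S.f v (a i)) with h1 | h1 <;>
        rcases eq_zero_or_one_of_card_two hF (S.f v (b i)) with h3 | h3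
      · refine absurd (S.mem_perp.2 fun w hw => ?_) h
        obtain ⟨x, y, rfl⟩ := hsp i w hw
        rw [add_right, smul_right, smul_right, h1, h3]; simp
      all_goals rw [h1, h3]
      · simp
      · simp
      · linear_combination h2
  have hpol : ∀ u v, S.f u v = ∑ i, (S.f u (a i) * S.f v (b i) + S.f u (b i) * S.f v (a i)) := by
    intro u v
    have hu : u ∈ iSup D := hD.decomp.iSup_eq_top ▸ Submodule.mem_top
    induction hu using Submodule.iSup_induction' with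
    | mem j u hu =>
      rw [Finset.sum_eq_single j (fun i _ hij => by
        rw [hD.orthogonal j i hij.symm u hu _ (ha i), hD.orthogonal j i hij.symm u hu _ (hb i)]
        simp) (by simp)]
      obtain ⟨x, y, rfl⟩ := hsp j u hu
      simp only [add_left, smul_left, hA, hab, hs (a j) (b j), hs v (a j), hs v (b j)]
      ring
    | zero => simp [zero_left]
    | add x y _ _ hx hy =>
      rw [add_left, hx, hy, ← Finset.sum_add_distrib]
      exact Finset.sum_congr rfl fun i _ => by simp only [add_left]; ring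
  refine ⟨fun v => ∑ i, (S.f v (a i) * S.f v (b i) + S.f v (a i) ^ 2 + S.f v (b i) ^ 2),
    ⟨fun c v => ?_, fun u v => ?_⟩, fun g hg v => ?_⟩
  · rw [Finset.mul_sum]
    exact Finset.sum_congr rfl fun i _ => by simp only [smul_left]; ring
  · rw [hpol, QuadraticMap.polar, ← Finset.sum_sub_distrib, ← Finset.sum_sub_distrib]
    exact Finset.sum_congr rfl fun i _ => by
      simp only [add_left]
      linear_combination (S.f u (a i) * S.f v (a i) + S.f u (b i) * S.f v (b i)) * h2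
  · obtain ⟨τ, hτ⟩ := hle hg
    simp only [key]
    rw [← Equiv.sum_comp τ]
    refine Finset.sum_congr rfl fun i _ => if_congr ?_ rfl rfl
    rw [← hτ, S.mem_perp, S.mem_perp]
    refine ⟨fun h w hw => ?_, ?_⟩
    · rw [← hH hg]; exact h _ (Submodule.mem_map_of_mem hw)
    · rintro h _ ⟨w, hw, rfl⟩
      rw [Matrix.toLin'_apply, S.mem_isom.1 (hH hg)]; exact h w hw

/-- the exceptional configurations in dimension four over the field with three elements -/
def SpEx4 [Fintype F] (H : Subgroup (GL ι F)) : Prop :=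
  Fintype.card ι = 4 → Fintype.card F = 3 → S.C2t H ∨ S.SpC3u H →
    S.C1t H ∨ S.C1n H ∨ S.C2n H ∨ S.SpSub H ∨ S.SpC6 H

/-- the exceptional configuration in dimension eight -/
def SpEx8 [Fintype F] (H : Subgroup (GL ι F)) : Prop :=
  ∀ (e : ι ≃ Fin 2 × Fin 4) (P : GL ι F) (S₁ : SF (Fin 2) F) (S₂ : SF (Fin 4) F), (2 : F) ≠ 0 →
    Irr H → S.Prim H → IsTens S H e P S₁ S₂ → S₁.ε = -1 → S₂.ε = 1 →
    IsPlusTypeOn (fun v => S₂.f v v) ⊤ → S.SpSub H ∨ S.SpC6 H ∨ S.SpC7 H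

end SF

theorem five_le_card [Fintype F] (h2 : (2 : F) ≠ 0) (h3 : Fintype.card F ≠ 3) :
    5 ≤ Fintype.card F := by
  obtain ⟨j, hj⟩ := two_ne_zero_iff_odd_card.1 h2
  have := Fintype.one_lt_card (α := F)
  omega

/-- The list of cases for a maximal subgroup of `Sp_{2m}(q)`. -/
theorem sp_max_cases [Fintype F] {m : ℕ} (hm : 2 ≤ m) (hex : ¬ (m = 2 ∧ Fintype.card F = 2))
    {H : Subgroup (GL (Fin m ⊕ Fin m) F)} (hH : IsMaximalIn (spGL m F) H)
    (x4 : (spSF m F).SpEx4 H) (x8 : (spSF m F).SpEx8 H) :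
    (∃ W : Submodule F (Fin m ⊕ Fin m → F), W ≠ ⊥ ∧ IsTotallySingularFor (sympForm m F) W ∧
      H = subspaceStabilizer W ⊓ spGL m F) ∨
    (3 ≤ m ∧ ∃ W : Submodule F (Fin m ⊕ Fin m → F), W ≠ ⊥ ∧ IsNondegenerateOn (sympForm m F) W ∧
      finrank F W < m ∧ H = subspaceStabilizer W ⊓ spGL m F) ∨
    (∃ (t k : ℕ) (D : Fin t → Submodule F (Fin m ⊕ Fin m → F)), t * k = 2 * m ∧ 2 ≤ t ∧ Even k ∧
      (k = 2 → 3 ≤ Fintype.card F) ∧ IsNondegenerateMDecomposition (sympForm m F) k D ∧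
      H = decompositionStabilizer D ⊓ spGL m F) ∨
    (Odd (Fintype.card F) ∧ (m = 2 → 5 ≤ Fintype.card F) ∧
      ∃ D : Fin 2 → Submodule F (Fin m ⊕ Fin m → F), IsMDecomposition m D ∧
      (∀ i, IsTotallySingularFor (sympForm m F) (D i)) ∧ H = decompositionStabilizer D ⊓ spGL m F) ∨
    (∃ (r : ℕ) (K : Subalgebra F (Matrix (Fin m ⊕ Fin m) (Fin m ⊕ Fin m) F)), r.Prime ∧ r ∣ m ∧
      IsFieldSubalgebra r K ∧ IsSelfAdjointFor (sympForm m F) K ∧
      (∀ k ∈ K, ∀ v, sympForm m F (k *ᵥ v) v = 0) ∧ H = subalgebraNormalizer K ⊓ spGL m F) ∨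
    (Odd (Fintype.card F) ∧ (m = 2 → 5 ≤ Fintype.card F) ∧
      ∃ K : Subalgebra F (Matrix (Fin m ⊕ Fin m) (Fin m ⊕ Fin m) F), IsFieldSubalgebra 2 K ∧
      IsAdjointClosedFor (sympForm m F) K ∧ ¬ IsSelfAdjointFor (sympForm m F) K ∧
      H = subalgebraNormalizer K ⊓ spGL m F) ∨
    (Odd (Fintype.card F) ∧ ∃ (n₁ n₂ : ℕ) (e : Fin m ⊕ Fin m ≃ Fin n₁ × Fin n₂)
      (P : GL (Fin m ⊕ Fin m) F) (f₁ : (Fin n₁ → F) → (Fin n₁ → F) → F)
      (f₂ : (Fin n₂ → F) → (Fin n₂ → F) → F), n₁ * n₂ = 2 * m ∧ 2 ≤ n₁ ∧ Even n₁ ∧ 3 ≤ n₂ ∧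
      (n₂ = 3 → 5 ≤ Fintype.card F) ∧
      (n₁ = 2 → n₂ = 4 → ¬ IsPlusTypeOn (fun v => f₂ v v) ⊤) ∧ IsSymplecticForm f₁ ∧
      IsSymmetricForm f₂ ∧ IsTensorFormStructure id (sympForm m F) f₁ f₂ e P ∧
      H = tensorProductSubgroup n₁ n₂ e P ⊓ spGL m F) ∨
    (∃ (F₀ : Subfield F) (r : ℕ) (P : GL (Fin m ⊕ Fin m) F) (ζ : F), r.Prime ∧
      Fintype.card F = Nat.card F₀ ^ r ∧ ζ ≠ 0 ∧ IsFormRationalStructure (sympForm m F) F₀ ζ P ∧
      H = subfieldSubgroup F₀ P ⊓ spGL m F) ∨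
    (∃ (k p : ℕ) (R : Subgroup (GL (Fin m ⊕ Fin m) F)), 2 ^ k = 2 * m ∧ p.Prime ∧ Odd p ∧
      Fintype.card F = p ∧ IsSymplecticTypeGroup 2 R ∧ ActsAbsolutelyIrreducibly (matrixSet R) ∧
      R ≤ similarityGroup (sympForm m F) ∧ Nat.card R = 2 ^ (1 + 2 * k) ∧
      Nat.card (Subgroup.center R) = 2 ∧ IsOfMinusType k R ∧
      H = subgroupNormalizer R ⊓ spGL m F) ∨
    (Odd (Fintype.card F) ∧ ∃ (k t : ℕ) (e : Fin m ⊕ Fin m ≃ (Fin t → Fin k))
      (P : GL (Fin m ⊕ Fin m) F) (f₁ : (Fin k → F) → (Fin k → F) → F), k ^ t = 2 * m ∧ 2 ≤ k ∧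
      3 ≤ t ∧ (k = 2 → 5 ≤ Fintype.card F) ∧ IsSymplecticForm f₁ ∧
      IsTensorPowerFormStructure id (sympForm m F) f₁ e P ∧
      H = tensorWreathSubgroup k t e P ⊓ spGL m F) ∨
    (¬ Odd (Fintype.card F) ∧ ∃ Q : (Fin m ⊕ Fin m → F) → F, IsNondegenerateQuadraticForm Q ∧
      (∀ u v, QuadraticMap.polar Q u v = sympForm m F u v) ∧
      H = quadSimilarityGroup Q ⊓ spGL m F) ∨
    InSymplecticResidualClass H := by
  have hc : Fintype.card (Fin m ⊕ Fin m) = 2 * m := by simp [two_mul]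
  have : Nontrivial (Fin m ⊕ Fin m) := Fintype.one_lt_card_iff_nontrivial.1 (by omega)
  have hG := tg_spGL (F := F) hm hex
  have hH' : H ≤ spGL m F := hH.1.le
  have E := fun {M} => H10.Asch.IsMaximalIn.eq_inf (M := M) hH
  have hσ : ∀ a, (spSF m F).σ a = a := fun _ => rfl
  have hq := Fintype.one_lt_card (α := F)
  set Φ := _ ∨ _ with hΦ
  have c8 : (2 : F) = 0 → (spSF m F).SpC8 H → Φ := by
    rintro h2 ⟨Q, a, b⟩
    iterate 10 right
    exact Or.inl ⟨fun h => two_ne_zero_iff_odd_card.2 h h2, Q, a.nondeg hσ, a.polar,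
      E b.le (spGL_not_le_quadSimilarityGroup hm (a.nondeg hσ) a.polar)⟩
  have c1t : (spSF m F).C1t H → Φ := by
    rintro ⟨W, a, b, c⟩
    exact Or.inl ⟨W, a, b, E c (hG.not_le_subspaceStabilizer a ((spSF m F).ne_top_of_ts a b))⟩
  have c1n : (spSF m F).C1n H → Φ := by
    rintro ⟨W, a, b, c, d⟩
    have h1 := (spSF m F).even_finrank hσ (spSF_alt m) b
    have h2 := Submodule.finrank_eq_zero.not.2 a
    obtain ⟨j, hj⟩ := h1
    exact Or.inr (Or.inl ⟨by omega, W, a, b, by omega,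
      E d (hG.not_le_subspaceStabilizer a (SF.ne_top_of_lt c))⟩)
  have c2n : (spSF m F).C2n H → Φ := by
    rintro ⟨t, k, D, a, b⟩
    by_cases h : k = 2 ∧ Fintype.card F = 2
    · obtain ⟨rfl, h⟩ := h
      refine c8 ?_ ((spSF m F).spC8_of_planes h hσ (spSF_alt m) a hH' b)
      by_contra h2
      exact absurd (h ▸ two_ne_zero_iff_odd_card.1 h2) (by decide)
    · have ht := a.decomp.two_le
      refine Or.inr (Or.inr (Or.inl ⟨t, k, D, hc ▸ IsMDecomposition.mul_eq_card a.decomp, ht, ?_,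
        by omega, a, E b (hG.not_le_decompositionStabilizer a.decomp)⟩))
      rw [← a.decomp.finrank_eq ⟨0, by omega⟩]
      exact (spSF m F).even_finrank hσ (spSF_alt m) (a.nondegenerate _)
  have c5 : (spSF m F).SpSub H → Φ := by
    rintro ⟨F₀, r, P, ζ, a, b, c, d, e⟩
    iterate 7 right
    exact Or.inl ⟨F₀, r, P, ζ, a, b, c, d,
      E e (spGL_not_le_subfieldSubgroup (by omega) (ne_top_of_card a.two_le b) P)⟩
  have c6 : (spSF m F).SpC6 H → Φ := by
    rintro ⟨R, p, k, a, b, c, d, e, f, g, h, i, j, l, n⟩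
    iterate 8 right
    exact Or.inl ⟨k, p, R, hc ▸ l.symm, d, e, f, a, b, c, g, h, i,
      E j (hG.not_le_subgroupNormalizer n (nrmS_spGL c))⟩
  have c7 : (2 : F) ≠ 0 → (spSF m F).SpC7 H → Φ := by
    rintro h2 ⟨k, t, e, P, T, a, b, c, d, W, g⟩
    have h1 : ∀ a, T.σ a = a := by rw [W.σ ⟨0, by omega⟩]; exact fun _ => rfl
    iterate 9 right
    exact Or.inl ⟨two_ne_zero_iff_odd_card.1 h2, k, t, e, P, T.f, hc ▸ W.card_eq.symm, c, b,
      fun h => five_le_card h2 fun h' => d ⟨h', h⟩,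
      T.isSymplecticForm h1 (T.ε_eq_neg_one_alt h2 h1 g), W.isTensorPower,
      E W.le (hG.not_le_tensorWreathSubgroup c (by omega) (Or.inr b) e P)⟩
  have ex4 : m = 2 ∧ Fintype.card F = 3 → (spSF m F).C2t H ∨ (spSF m F).SpC3u H → Φ := by
    intro h h'
    rcases x4 (by omega) h.2 h' with h | h | h | h | h
    exacts [c1t h, c1n h, c2n h, c5 h, c6 h]
  rcases spSF_cases (by omega) hH' with h | h | h | ⟨h2, h⟩ | ⟨r, K, a, b, c, d, e, g⟩ | ⟨h2, h⟩ |
    ⟨h2, hI, hP, n₁, n₂, e, P, S₁, S₂, a, b, c, T, d, g⟩ | h | h | ⟨h2, h⟩ | ⟨h2, h⟩ | h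
  · exact c1t h
  · exact c1n h
  · exact c2n h
  · by_cases h3 : m = 2 ∧ Fintype.card F = 3
    · exact ex4 h3 (Or.inl h)
    obtain ⟨k, D, a, b, c, d⟩ := h
    obtain rfl : k = m := by omega
    iterate 3 right
    exact Or.inl ⟨two_ne_zero_iff_odd_card.1 h2, fun h => five_le_card h2 fun h' => h3 ⟨h, h'⟩, D,
      b, c, E d (hG.not_le_decompositionStabilizer b)⟩
  · iterate 4 right
    exact Or.inl ⟨r, K, a, Nat.dvd_of_mul_dvd_mul_left two_pos (hc ▸ b), c, d, e,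
      E g (TG.not_le_subalgebraNormalizer (by omega) hG a.two_le c)⟩
  · by_cases h3 : m = 2 ∧ Fintype.card F = 3
    · exact ex4 h3 (Or.inr h)
    obtain ⟨K, a, b, c, d⟩ := h
    iterate 5 right
    exact Or.inl ⟨two_ne_zero_iff_odd_card.1 h2, fun h => five_le_card h2 fun h' => h3 ⟨h, h'⟩, K,
      a, b, c, E d (TG.not_le_subalgebraNormalizer (by omega) hG le_rfl a)⟩
  · by_cases h3 : n₁ = 2 ∧ n₂ = 4 ∧ IsPlusTypeOn (fun v => S₂.f v v) ⊤
    · obtain ⟨rfl, rfl, h3⟩ := h3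
      rcases x8 e P S₁ S₂ h2 hI hP T d g h3 with h | h | h
      exacts [c5 h, c6 h, c7 h2 h]
    have h1 : ∀ a, S₁.σ a = a := by rw [T.σ₁]; exact fun _ => rfl
    have h4 := S₁.ε_eq_neg_one_alt h2 h1 d
    iterate 6 right
    exact Or.inl ⟨two_ne_zero_iff_odd_card.1 h2, n₁, n₂, e, P, S₁.f, S₂.f,
      by rw [← hc, T.card_eq]; simp, a, by simpa using S₁.even_finrank h1 h4 S₁.nondeg_top, b,
      fun h => five_le_card h2 fun h' => c ⟨h', h⟩, fun x y z => h3 ⟨x, y, z⟩,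
      S₁.isSymplecticForm h1 h4, S₂.isSymmetricForm (by rw [T.σ₂]; exact fun _ => rfl) g,
      T.isTensorFormStructure, E T.le_tensor (hG.not_le_tensorProductSubgroup a (by omega) e P)⟩
  · exact c5 h
  · exact c6 h
  · exact c7 h2 h
  · exact c8 h2 h
  · iterate 11 right
    exact h

theorem spEx4_of_ne [Fintype F] (S : SF ι F) (H : Subgroup (GL ι F))
    (h : ¬ (Fintype.card ι = 4 ∧ Fintype.card F = 3)) : S.SpEx4 H := fun a b _ => absurd ⟨a, b⟩ h

theorem spEx8_of_ne [Fintype F] (S : SF ι F) (H : Subgroup (GL ι F)) (h : Fintype.card ι ≠ 8) :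
    S.SpEx8 H := fun e _ _ _ _ _ _ _ _ _ _ => absurd (by simpa using Fintype.card_congr e) h

end H28.AF
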