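import Cfsg.Agent.Lib.AschF.SpMain

/-!
Aschbacher's theorem for unitary groups.
-/

set_option autoImplicit false
set_option linter.unusedSectionVars false

namespace H28.AF

open Matrix Cfsg Cfsg.Geo H10.Asch Module
open scoped MatrixGroups Kronecker commutatorElement

variable {ι : Type} [Fintype ι] [DecidableEq ι] {F : Type*} [Field F]

theorem exists_norm_one_ne {σ : F →+* F} (hne : σ ≠ RingHom.id F) (hσ : ∀ a, σ (σ a) = a) :
    ∃ a : F, σ a * a = 1 ∧ σ a ≠ a := by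
  have key : ∀ c : F, σ c ≠ c → σ c ≠ -c → ∃ a : F, σ a * a = 1 ∧ σ a ≠ a := fun c h1 h2 => by
    have hc : c ≠ 0 := by rintro rfl; simp at h1
    have hc' : σ c ≠ 0 := by simpa using hc
    refine ⟨c / σ c, by rw [map_div₀, hσ]; field_simp, fun h => ?_⟩
    rw [map_div₀, hσ, div_eq_div_iff hc hc', ← sq, ← sq, sq_eq_sq_iff_eq_or_eq_neg] at h
    exact h.elim h1 h2
  obtain ⟨c, hc⟩ : ∃ c, σ c ≠ c := by
    by_contra h; push Not at h; exact hne (RingHom.ext h)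
  by_cases h : σ c = -c
  · refine key (c + 1) (by simpa using hc) fun h' => hc ?_
    rw [map_add, map_one, h] at h'
    linear_combination h - c * h'
  · exact key c hc h

theorem mem_specialLinear {g : GL ι F} : g ∈ specialLinear ι F ↔ (g : Matrix ι ι F).det = 1 :=
  ⟨fun h => congrArg Units.val h, fun h => Units.ext h⟩

namespace SF

variable (S : SF ι F)

/-- the form with identity Gram matrix -/
def std (ι : Type) [Fintype ι] [DecidableEq ι] (σ : F →+* F) (hσ : ∀ a, σ (σ a) = a) : SF ι F :=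
  ⟨σ, hσ, 1, 1, Or.inl rfl, by rw [one_smul, Units.val_one, cT_one]⟩

theorem f_of_G_one (hG : S.G = 1) (u v : ι → F) : S.f u v = ∑ i, u i * S.σ (v i) := by
  simp [f, hG, gform, dotProduct]

theorem st_of_G_one (hG : S.G = 1) (x : Matrix ι ι F) : S.st x = xᵀ.map S.σ := by
  rw [st, hG, inv_one, cj_one]

theorem nrmS_sim_isom : NrmS (similarityGroup S.f) S.Isom := fun g hg x hx => by
  rw [mem_isom_iff_st] at hx ⊢
  rw [← cj_coe, S.st_cj_of_sim hg, ← map_mul, hx, map_one]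

theorem spanA_SU2 (S : SF (Fin 2) F) (hne : S.σ ≠ RingHom.id F) (hG : S.G = 1) :
    spanA F (S.Isom ⊓ specialLinear (Fin 2) F) = ⊤ := by
  obtain ⟨a, ha, ha'⟩ := exists_norm_one_ne hne S.σσ
  let D : GL (Fin 2) F := ⟨!![a, 0; 0, S.σ a], !![S.σ a, 0; 0, a],
    by ext i j; fin_cases i <;> fin_cases j <;> simp [ha, mul_comm a],
    by ext i j; fin_cases i <;> fin_cases j <;> simp [ha, mul_comm a]⟩
  let J : GL (Fin 2) F := ⟨!![0, 1; -1, 0], !![0, -1; 1, 0],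
    by ext i j; fin_cases i <;> fin_cases j <;> simp,
    by ext i j; fin_cases i <;> fin_cases j <;> simp⟩
  have hD : (D : Matrix (Fin 2) (Fin 2) F) ∈ spanA F (S.Isom ⊓ specialLinear (Fin 2) F) :=
    coe_mem_spanA ⟨S.mem_isom_iff_st.2 (by
      rw [S.st_of_G_one hG]
      ext i j; fin_cases i <;> fin_cases j <;> simp [D, mul_apply, ha, mul_comm a, S.σσ]),
      mem_specialLinear.2 (by simp [D, ha, mul_comm a])⟩
  have hJ : (J : Matrix (Fin 2) (Fin 2) F) ∈ spanA F (S.Isom ⊓ specialLinear (Fin 2) F) :=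
    coe_mem_spanA ⟨S.mem_isom_iff_st.2 (by
      rw [S.st_of_G_one hG]
      ext i j; fin_cases i <;> fin_cases j <;> simp [J, mul_apply]),
      mem_specialLinear.2 (by simp [J])⟩
  have hE : (!![1, 0; 0, 0] : Matrix (Fin 2) (Fin 2) F) ∈
      spanA F (S.Isom ⊓ specialLinear (Fin 2) F) := by
    have : (!![1, 0; 0, 0] : Matrix (Fin 2) (Fin 2) F) =
        (a - S.σ a)⁻¹ • ((D : Matrix (Fin 2) (Fin 2) F) - S.σ a • 1) := by
      ext i j; fin_cases i <;> fin_cases j <;> simp [D, sub_ne_zero.2 ha'.symm]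
    rw [this]
    exact Subalgebra.smul_mem _ (sub_mem hD (Subalgebra.smul_mem _ (one_mem _) _)) _
  rw [eq_top_iff]
  intro x _
  have : x = x 0 0 • !![1, 0; 0, 0] + x 0 1 • (!![1, 0; 0, 0] * (J : Matrix (Fin 2) (Fin 2) F)) -
      x 1 0 • ((1 - !![1, 0; 0, 0]) * (J : Matrix (Fin 2) (Fin 2) F)) +
      x 1 1 • (1 - !![1, 0; 0, 0]) := by
    ext i j; fin_cases i <;> fin_cases j <;> simp [J, mul_apply]
  rw [this]
  have hE' := sub_mem (one_mem _) hE
  exact add_mem (sub_mem (add_mem (Subalgebra.smul_mem _ hE _)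
    (Subalgebra.smul_mem _ (mul_mem hE hJ) _)) (Subalgebra.smul_mem _ (mul_mem hE' hJ) _))
    (Subalgebra.smul_mem _ hE' _)

theorem irr_isom_of_G_one (hne : S.σ ≠ RingHom.id F) (hG : S.G = 1) : Irr S.Isom := by
  obtain ⟨a, ha, ha'⟩ := exists_norm_one_ne hne S.σσ
  have ha1 : a - 1 ≠ 0 := fun h => ha' (by rw [sub_eq_zero.1 h, map_one])
  intro W hW
  refine or_iff_not_imp_left.2 fun h0 => ?_
  obtain ⟨w, hw, hw0⟩ := Submodule.exists_mem_ne_zero_of_ne_bot h0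
  obtain ⟨i, hi⟩ := Function.ne_iff.1 hw0
  let D : GL ι F := ⟨diagonal (Pi.mulSingle i a), diagonal (Pi.mulSingle i (S.σ a)),
    by rw [diagonal_mul_diagonal, ← Pi.mul_def, ← Pi.mulSingle_mul, mul_comm, ha]; simp,
    by rw [diagonal_mul_diagonal, ← Pi.mul_def, ← Pi.mulSingle_mul, ha]; simp⟩
  have hD : D ∈ S.Isom := S.mem_isom_iff_st.2 (by
    rw [S.st_of_G_one hG, ← D.inv_mul]
    congr 1
    ext j k
    by_cases h : j = k
    · subst h
      simpa [D] using Pi.apply_mulSingle (fun _ => S.σ) (fun _ => map_one _) i a j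
    · simp [D, diagonal_apply_ne _ h])
  have h1 : (Pi.single i 1 : ι → F) ∈ W := by
    have : (Pi.single i 1 : ι → F) = ((a - 1) * w i)⁻¹ • ((D : Matrix ι ι F) *ᵥ w - w) := by
      ext j
      by_cases h : j = i
      · subst h
        simp only [D, Pi.single_eq_same, Pi.smul_apply, Pi.sub_apply, mulVec_diagonal,
          Pi.mulSingle_eq_same, smul_eq_mul]
        rw [← sub_one_mul, inv_mul_cancel₀ (mul_ne_zero ha1 hi)]
      · simp [D, mulVec_diagonal, h]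
    rw [this]
    exact W.smul_mem _ (sub_mem (hW D hD w hw) hw)
  have h2 : ∀ j, (Pi.single j 1 : ι → F) ∈ W := fun j => by
    let τ := Equiv.swap i j
    let g : GL ι F := ⟨τ.permMatrix F, τ.permMatrix F,
      by rw [← permMatrix_mul, Equiv.swap_mul_self, permMatrix_one],
      by rw [← permMatrix_mul, Equiv.swap_mul_self, permMatrix_one]⟩
    have hg : ∀ v, (g : Matrix ι ι F) *ᵥ v = v ∘ τ := fun v => permMatrix_mulVec _
    have := hW g (S.mem_isom.2 fun u v => by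
      rw [hg, hg, S.f_of_G_one hG, S.f_of_G_one hG]
      exact Equiv.sum_comp τ fun k => u k * S.σ (v k)) _ h1
    rw [hg] at this
    convert this using 1
    ext k
    simp [τ, Pi.single_apply, Equiv.swap_apply_eq_iff]
  rw [eq_top_iff]
  intro v _
  rw [pi_eq_sum_univ' v]
  exact W.sum_mem fun j _ => W.smul_mem _ (h2 j)

/-- field extension subgroups -/
def UC3 (H : Subgroup (GL ι F)) : Prop :=
  ∃ (r : ℕ) (K : Subalgebra F (Matrix ι ι F)), r.Prime ∧ Odd r ∧ IsFieldSubalgebra r K ∧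
    IsAdjointClosedFor S.f K ∧ H ≤ subalgebraNormalizer K

/-- tensor products -/
def UC4 (q : ℕ) (H : Subgroup (GL ι F)) : Prop :=
  ∃ (n₁ n₂ : ℕ) (e : ι ≃ Fin n₁ × Fin n₂) (P : GL ι F) (f₁ : (Fin n₁ → F) → (Fin n₁ → F) → F)
    (f₂ : (Fin n₂ → F) → (Fin n₂ → F) → F), 2 ≤ n₁ ∧ n₁ < n₂ ∧ (q = 2 → 3 ≤ n₁) ∧
    IsUnitaryFormPow q f₁ ∧ IsUnitaryFormPow q f₂ ∧
    IsTensorFormStructure (fun x : F => x ^ q) S.f f₁ f₂ e P ∧ H ≤ tensorProductSubgroup n₁ n₂ e P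

/-- tensor powers -/
def UC7 (q : ℕ) (H : Subgroup (GL ι F)) : Prop :=
  ∃ (k t : ℕ) (e : ι ≃ (Fin t → Fin k)) (P : GL ι F) (f₁ : (Fin k → F) → (Fin k → F) → F),
    3 ≤ k ∧ 2 ≤ t ∧ ¬ (q = 2 ∧ k = 3) ∧ IsUnitaryFormPow q f₁ ∧
    IsTensorPowerFormStructure (fun x : F => x ^ q) S.f f₁ e P ∧ H ≤ tensorWreathSubgroup k t e P

theorem exists_ea_GU32 [Fintype F] (hF : Fintype.card F = 2 ^ 2) (T : SF (Fin 3) F)
    (hσ : ∀ a, T.σ a = a ^ 2) (hG : T.G = 1) (hP : T.Prim (similarityGroup T.f)) :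
    ∃ (r : ℕ) (R : Subgroup (GL (Fin 3) F)), IsEA r R ∧ NrmS (similarityGroup T.f) R ∧
      R ≤ similarityGroup T.f ∧ ∀ x ∈ R, x ^ rr r = 1 := by
  have hI := (T.irr_isom_of_G_one (pow_ne_id hF hσ) hG).mono T.isom_le_sim
  have hsol := fun {M : Subgroup (GL (Fin 3) F)} (h : M ≤ similarityGroup T.f) =>
    eq_bot_of_perfect (T.isSolvable_GU32 hF hσ hG) (h.trans (T.sim_le_isom_two hσ))
  rcases hP.tens_or_prim le_rfl hI with ⟨n₁, n₂, e, P, S₁, S₂, h₁, h₂, h, -⟩ | h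
  · have := h.card_eq
    simp only [Fintype.card_fin] at this
    nlinarith
  rcases h.cases hI with ⟨r, N, hN, hE⟩ | ⟨t, k, L, ψ, e, P, h⟩ | ⟨P, h⟩
  · exact ⟨r, hE.omega, hE.isEA_omega hN, hE.nrmS_omega hN.nrm,
      fun x hx => sup_le hN.le T.scalars_le_sim hx.1, fun x hx => hx.2⟩
  · exact absurd ((hsol h.minN_iSup.le h.perfect_iSup).le.trans bot_le) h.minN_iSup.not_le
  · exact absurd ((hsol h.le h.perfect).le.trans bot_le) h.minN.not_le

theorem u_wr [Fintype F] [Nontrivial ι] {q : ℕ} (hF : Fintype.card F = q ^ 2)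
    (hσ : ∀ a, S.σ a = a ^ q) (hε : S.ε = 1) {H : Subgroup (GL ι F)} (hH : H ≤ S.Isom)
    (hI : Irr H) (hP : S.Prim H) {t k : ℕ} (ht : 2 ≤ t) (hk : 2 ≤ k) {e : ι ≃ (Fin t → Fin k)}
    {P : GL ι F} {T : Fin t → SF (Fin k) F} (W : IsWr S H e P T) (hT : ∀ i, (T i).ε = 1) :
    S.USub q H ∨ S.UC6 H ∨ S.UC7 q H := by
  have : NeZero t := ⟨by omega⟩
  have : NeZero k := ⟨by omega⟩
  have hne := pow_ne_id hF hσ
  have hH' := hH.trans S.isom_le_sim
  choose g hg using fun i => (T i).exists_pull_eq_one (by rw [W.σ]; exact hne) (hT i)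
  have W' := (W.change g).of_prop (T' := fun _ => std (Fin k) S.σ S.σσ) (fun _ => rfl)
    fun i => ⟨1, by rw [hg, map_one, one_mul]; rfl⟩
  by_cases h2 : k = 2
  · subst h2
    have hle := W'.wr_le_isom (R := _ ⊓ specialLinear (Fin 2) F) inf_le_left
    have hsp := spanA_wr e (P * glReindex e.symm (ptensGL g))
      ((std (Fin 2) S.σ S.σσ).spanA_SU2 hne rfl)
    refine Or.inl (S.usub_of hF hσ hε Fintype.one_lt_card hH hI (W'.nrmS_wr hH'
      ((nrmS_sim_isom _).inf (nrmS_of_normal _ _ (hN := MonoidHom.normal_ker _)))) hsp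
      (eqLocus_ne_top hne) (realisableOver_iff.2 (realisableOver_of_trace hsp fun x hx => ?_))
      (S.st_eq_of_isom hle _))
    obtain ⟨s, hs, rfl⟩ := mem_wr.1 hx
    rw [trace_whom]
    refine prod_mem fun i _ => ?_
    change (std (Fin 2) S.σ S.σσ).σ _ = _
    rw [← trace_inv _ (hs i).1, coe_units_inv, inv_def, mem_specialLinear.1 (hs i).2,
      adjugate_fin_two]
    simp [trace_fin_two, add_comm]
  by_cases h3 : q = 2 ∧ k = 3
  · obtain ⟨rfl, rfl⟩ := h3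
    obtain ⟨r, R, hE, hn, hs, hp⟩ := exists_ea_GU32 hF _ hσ rfl (W'.prim hH' hP)
    refine (S.u_c6 hF hσ hε hH hI hP (W'.nrmS_wr hH' hn) (isEA_wr _ _ hE)
      ((W'.wr_le_isom (hs.trans (sim_le_isom_two _ hσ))).trans S.isom_le_sim)
      (fun x hx => Subgroup.mem_sup_left ((IsEA.mem_omega _).2
        ⟨Subgroup.mem_sup_left hx, ?_⟩))).imp_right Or.inl
    obtain ⟨s, hs, rfl⟩ := mem_wr.1 hx
    rw [← map_pow, show s ^ rr r = 1 from funext fun i => hp _ (hs i), map_one]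
  · refine Or.inr (Or.inr ⟨k, t, e, _, _, by omega, ht, h3,
      (std (Fin k) S.σ S.σσ).isUnitaryFormPow hσ rfl, ?_, W'.le⟩)
    rw [← funext hσ]
    exact W'.isTensorPower

theorem u_tens [Fintype F] [Nontrivial ι] {q : ℕ} (hF : Fintype.card F = q ^ 2)
    (hσ : ∀ a, S.σ a = a ^ q) (hε : S.ε = 1) {H : Subgroup (GL ι F)} (hH : H ≤ S.Isom)
    (hI : Irr H) (hP : S.Prim H) {n₁ n₂ : ℕ} {e : ι ≃ Fin n₁ × Fin n₂}
    {P : GL ι F} {S₁ : SF (Fin n₁) F} {S₂ : SF (Fin n₂) F} (h₁ : 2 ≤ n₁) (h₂ : 2 ≤ n₂)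
    (T : IsTens S H e P S₁ S₂) (hε₁ : S₁.ε = 1) :
    S.UC4 q H ∨ S.USub q H ∨ S.UC6 H ∨ S.UC7 q H := by
  have hε₂ : S₂.ε = 1 := by rw [← hε, T.ε, hε₁, one_mul]
  wlog h : n₁ ≤ n₂ generalizing n₁ n₂
  · exact this h₂ h₁ T.swap hε₂ hε₁ (by omega)
  rcases h.lt_or_eq with h | rfl
  · have : Nonempty (Fin n₁) := ⟨⟨0, by omega⟩⟩
    have : Nonempty (Fin n₂) := ⟨⟨0, by omega⟩⟩
    have hσ₁ : ∀ a, S₁.σ a = a ^ q := by rw [T.σ₁]; exact hσ
    refine Or.inl ⟨n₁, n₂, e, P, S₁.f, S₂.f, h₁, h, ?_, S₁.isUnitaryFormPow hσ₁ hε₁,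
      S₂.isUnitaryFormPow (by rw [T.σ₂]; exact hσ) hε₂, ?_, T.le_tensor⟩
    · rintro rfl
      by_contra h3
      obtain rfl : n₁ = 2 := by omega
      exact S₁.not_prim_GU22 hF hσ₁ hε₁ (T.prim_left (hH.trans S.isom_le_sim) hP)
    · rw [← funext hσ]
      exact T.isTensorFormStructure
  · exact Or.inr (S.u_wr hF hσ hε hH hI hP le_rfl h₁ T.isWr (by
      intro i; fin_cases i; exacts [hε₁, hε₂]))

theorem u_core [Fintype F] [Nontrivial ι] {q : ℕ} (hF : Fintype.card F = q ^ 2)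
    (hσ : ∀ a, S.σ a = a ^ q) (hε : S.ε = 1) {H P : Subgroup (GL ι F)} (hH : H ≤ S.Isom)
    (hI : Irr H) (h : PreCore H P) : S.USub q H ∨ InUnitaryResidualClass H := by
  have hP := h.le.trans hH
  by_cases hs : ∀ F₀ : Subfield F, F₀ ≠ ⊤ → ¬ RealisableOver F₀ (matrixSet P)
  swap
  · push Not at hs
    obtain ⟨F₀, h0, hR⟩ := hs
    exact Or.inl (S.usub_of hF hσ hε Fintype.one_lt_card hH hI h.nrm h.span h0 hR
      (S.st_eq_of_isom hP _))
  have key : ∀ f : (ι → F) → (ι → F) → F, IsBilinearForm f → IsNondegenerateForm f →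
      ¬ FixesForm (matrixSet P) f := fun f hf hn hfix => by
    have h1 := isSesq_of_bilinear hf
    rw [h1.eq_gform, fixesForm_gform_iff] at hfix
    refine hs _ (eqLocus_ne_top (pow_ne_id hF hσ))
      (realisableOver_iff.2 (realisableOver_of_trace h.span fun g hg => ?_))
    change S.σ _ = _
    rw [← S.trace_inv (hP hg), fixes_trace_inv (h1.isUnit_gram hn) hfix hg]
  refine Or.inr ⟨P, h.isResidualCore hs, ?_, ?_⟩
  · rintro ⟨Q, hQ, hfix⟩
    exact key _ hQ.polar_bilinear hQ.nondegenerate (fixesForm_polar hfix)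
  · rintro ⟨f, hf, hfix⟩
    exact key _ hf.bilinear hf.nondegenerate hfix

/-- the cases of Aschbacher's theorem for a unitary group -/
def UCases [Fintype F] (q : ℕ) (H : Subgroup (GL ι F)) : Prop :=
  S.C1t H ∨ S.C1n H ∨ S.C2n H ∨ S.C2t H ∨ S.UC3 H ∨ S.UC4 q H ∨ S.USub q H ∨ S.UC6 H ∨
    S.UC7 q H ∨ InUnitaryResidualClass H

theorem u_main [Fintype F] [Nontrivial ι] {q : ℕ} (hF : Fintype.card F = q ^ 2)
    (hσ : ∀ a, S.σ a = a ^ q) (hε : S.ε = 1) {H : Subgroup (GL ι F)} (hH : H ≤ S.Isom) :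
    S.UCases q H := by
  have hH' := hH.trans S.isom_le_sim
  unfold UCases
  by_cases hI : Irr H
  swap
  · rcases S.red_cases hH' hI with h | h | h <;> simp only [h, true_or, or_true]
  by_cases hP : S.Prim H
  swap
  · rcases S.not_prim_cases hH' hI hP with h | ⟨e, he, hs, hN⟩ | ⟨r, K, hr, hK, hN, hC⟩
    · simp only [h, true_or, or_true]
    · simp only [S.c2t_of_idem hI he hs hN, true_or, or_true]
    · have : S.UC3 H := ⟨r, K, hr, S.odd_of_herm hF hσ hK hC, hK, S.isAdjointClosedFor_iff.2 hC,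
        hN.le_subalgebraNormalizer⟩
      simp only [this, true_or, or_true]
  rcases hP.tens_or_prim hH' hI with ⟨n₁, n₂, e, P, S₁, S₂, h₁, h₂, T, h₃⟩ | h
  · rcases S.u_tens hF hσ hε hH hI hP h₁ h₂ T (h₃ (pow_ne_id hF hσ)) with h | h | h | h <;>
      simp only [h, true_or, or_true]
  rcases h.cases hI with ⟨r, N, hN, hE⟩ | ⟨t, k, L, ψ, e, P, h⟩ | ⟨P, h⟩
  · rcases S.u_c6 hF hσ hε hH hI hP hN.nrm hE (hN.le.trans hH') (hE.le_omega_sup hN)
      with h | h <;> simp only [h, true_or, or_true]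
  · obtain ⟨T, W, hT⟩ := S.isWr_of_comps hH' h
    rcases S.u_wr hF hσ hε hH hI hP h.two_le_t h.two_le_k W (fun _ => hT (pow_ne_id hF hσ))
      with h | h | h <;> simp only [h, true_or, or_true]
  · rcases S.u_core hF hσ hε hH hI h with h | h <;> simp only [h, true_or, or_true]

end SF

/-- the standard unitary form as an `SF` -/
theorem exists_uSF [Fintype F] (n : ℕ) {q : ℕ} (hF : Fintype.card F = q ^ 2) :
    ∃ S : SF (Fin n) F, (∀ a, S.σ a = a ^ q) ∧ S.ε = 1 ∧ S.G = 1 ∧ S.f = hermForm n F q ∧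
      S.Isom = GU n F q := by
  have : H11.U.IsSq F q := ⟨hF⟩
  let S := SF.std (Fin n) (H11.U.cj q : F →+* F) H11.U.cj_cj
  have h : S.f = hermForm n F q := S.hermForm_eq (fun _ => rfl) rfl
  exact ⟨S, fun _ => rfl, rfl, rfl, h, by rw [SF.Isom, h]; rfl⟩

end H28.AF
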