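import Cfsg.Agent.Lib.AschF.UMain
import Cfsg.Agent.Lib.Asch.ProperCl

/-!
Maximal subgroups of special unitary groups: the list of cases.
-/

set_option autoImplicit false
set_option linter.unusedSectionVars false

namespace H28.AF

open Matrix Cfsg Cfsg.Geo H10.Asch Module
open scoped MatrixGroups Kronecker commutatorElement

variable {ι : Type} [Fintype ι] [DecidableEq ι] {F : Type*} [Field F]

theorem mulVec_mem_of_map_eq {W U : Submodule F (ι → F)} {g : Matrix ι ι F}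
    (h : W.map (Matrix.toLin' g) = U) {v : ι → F} (hv : v ∈ W) : g *ᵥ v ∈ U :=
  h ▸ Submodule.mem_map_of_mem hv

theorem minField [Fintype F] {z p e q : ℕ} (h : IsMinimalFieldFor z p e F)
    (hF : Fintype.card F = q ^ 2) (hz : 2 ≤ z) (hf : ∀ a < z, a ≠ 0 → a ^ (z - 1) % z = 1) :
    ∃ j, j ≤ (z - 1) / 2 ∧ 0 < j ∧ q = p ^ j ∧ (p % z) ^ (2 * j) % z = 1 ∧
      ∀ d < 2 * j, 0 < d → (p % z) ^ d % z ≠ 1 := by
  obtain ⟨hp, -, hc, h1, h2⟩ := h
  have key : ∀ d, z ∣ p ^ d - 1 ↔ (p % z) ^ d % z = 1 := fun d => by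
    rw [← Nat.modEq_iff_dvd' (Nat.one_le_pow d p hp.pos), ← Nat.pow_mod, Nat.ModEq,
      Nat.mod_eq_of_lt (by omega : 1 < z), eq_comm]
  obtain ⟨j, -, rfl⟩ := (Nat.dvd_prime_pow hp).1 (hc ▸ hF ▸ dvd_pow_self q two_ne_zero)
  obtain rfl : e = 2 * j := by
    rw [hF, ← pow_mul, mul_comm] at hc
    exact (Nat.pow_right_injective hp.two_le hc).symm
  have hj : 0 < j := by
    have := Fintype.one_lt_card (α := F)
    by_contra h0
    obtain rfl : j = 0 := by omega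
    simp [hc] at this
  rw [key] at h1
  refine ⟨j, ?_, hj, rfl, h1, fun d hd h0 => by rw [Ne, ← key]; exact h2 d h0 hd⟩
  by_contra hlt
  refine h2 (z - 1) (by omega) (by omega) ((key _).2 (hf _ (Nat.mod_lt _ (by omega)) fun h0 => ?_))
  rw [h0, zero_pow (by omega)] at h1
  simp at h1

theorem minField_four [Fintype F] {p q : ℕ} (h : IsMinimalFieldFor 4 p 2 F)
    (hF : Fintype.card F = q ^ 2) : q = p ∧ p % 4 = 3 := by
  obtain ⟨hp, -, hc, h1, h2⟩ := h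
  refine ⟨Nat.pow_left_injective two_ne_zero (hF.symm.trans hc), ?_⟩
  have h3 := h2 1 one_pos one_lt_two
  have h4 := hp.two_le
  rw [← Nat.modEq_iff_dvd' (Nat.one_le_pow 2 p hp.pos), Nat.ModEq, Nat.pow_mod] at h1
  have : p % 4 < 4 := Nat.mod_lt _ (by norm_num)
  rw [pow_one] at h3
  interval_cases h : p % 4 <;> omega

namespace SF

variable (S : SF ι F)

theorem PreFrame.exists_frame' [Finite F] {S : SF ι F} {H : Subgroup (GL ι F)} {T : Set (ι → F)}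
    {d : F} (h : S.PreFrame H T d) (hn : 2 ≤ Fintype.card ι) (hT : Submodule.span F T = ⊤) :
    ∃ D : Fin (Fintype.card ι) → Submodule F (ι → F), IsNondegenerateMDecomposition S.f 1 D ∧
      H ≤ decompositionStabilizer D ∧ ∀ i, ∃ v ∈ T, D i = F ∙ v := by
  let L : Set (Submodule F (ι → F)) := (fun v => F ∙ v) '' T
  have : Finite L := ((Set.toFinite T).image _).to_subtype
  let ψ := (Finite.equivFin L).symm
  choose w hw hw' using fun i => (ψ i).2
  have hw0 : ∀ i, w i ≠ 0 := fun i h0 => h.ne (by rw [← h.norm _ (hw i), h0, zero_left])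
  have horth : ∀ i j, i ≠ j → AreOrthogonalFor S.f (ψ i) (ψ j) := fun i j hij u hu v hv => by
    rw [← hw'] at hu hv
    obtain ⟨a, rfl⟩ := Submodule.mem_span_singleton.1 hu
    obtain ⟨b, rfl⟩ := Submodule.mem_span_singleton.1 hv
    rcases h.pair _ (hw j) _ (hw i) with h0 | ⟨c, hc⟩
    · rw [smul_left, smul_right, h0, mul_zero, mul_zero]
    · refine absurd (ψ.injective (Subtype.ext ?_)) hij
      rw [← hw', ← hw', hc]
      exact Submodule.span_singleton_smul_eq (Ne.isUnit (by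
        rintro rfl; exact hw0 i (by rw [hc, zero_smul]))) _
  have hnd : ∀ i, IsNondegenerateOn S.f (ψ i) := fun i u hu hu0 => by
    rw [← hw'] at hu ⊢
    obtain ⟨a, rfl⟩ := Submodule.mem_span_singleton.1 hu
    have ha : a ≠ 0 := by rintro rfl; exact hu0 (zero_smul _ _)
    refine ⟨⟨_, Submodule.mem_span_singleton_self _, ?_⟩, _, Submodule.mem_span_singleton_self _, ?_⟩
    · rw [smul_right, h.norm _ (hw i)]; exact mul_ne_zero (by rwa [Ne, S.σ_eq_zero]) h.ne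
    · rw [smul_left, h.norm _ (hw i)]; exact mul_ne_zero ha h.ne
  have hind : iSupIndep fun i => (ψ i : Submodule F (ι → F)) := fun i =>
    (disjoint_iff.2 (S.isNondegenerateOn_iff.1 (hnd i))).mono_right
      (iSup₂_le fun j hj u hu => S.mem_perp.2 fun v hv => horth j i hj u hu v hv)
  have hsup : (⨆ i, (ψ i : Submodule F (ι → F))) = ⊤ := by
    rw [eq_top_iff, ← hT, Submodule.span_le]
    intro v hv
    exact Submodule.mem_iSup_of_mem (ψ.symm ⟨_, v, hv, rfl⟩) (by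
      rw [Equiv.apply_symm_apply]; exact Submodule.mem_span_singleton_self v)
  have hfr : ∀ i, finrank F (ψ i : Submodule F (ι → F)) = 1 := fun i => by
    rw [← hw']; exact finrank_span_singleton (hw0 i)
  have hc : Nat.card L = Fintype.card ι := by
    have := (DirectSum.isInternal_submodule_of_iSupIndep_of_iSup_eq_top hind hsup)
    have h1 := (LinearEquiv.ofBijective (DirectSum.coeLinearMap _) this).finrank_eq
    rw [Module.finrank_directSum, Module.finrank_fintype_fun_eq_card] at h1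
    rw [Finset.sum_congr rfl fun i _ => hfr i] at h1
    simpa only [Finset.sum_const, Finset.card_univ, Fintype.card_fin, smul_eq_mul, mul_one] using h1
  rw [← hc] at hn ⊢
  refine ⟨fun i => ψ i, ⟨⟨hn, one_pos, hfr, hind, hsup⟩, hnd, horth⟩, fun g hg => ?_,
    fun i => ⟨w i, hw i, (hw' i).symm⟩⟩
  let φ : L → L := fun l => ⟨l.1.map (Matrix.toLin' (g : Matrix ι ι F)), by
    obtain ⟨_, v, hv, rfl⟩ := l
    exact ⟨_, h.inv g hg v hv, by simp [Submodule.map_span]⟩⟩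
  have hφ : Function.Injective φ := fun a b hab => Subtype.ext (Submodule.map_injective_of_injective
    (fun u v huv => by simpa using congrArg (((g⁻¹ : GL ι F) : Matrix ι ι F) *ᵥ ·) huv)
    (congrArg Subtype.val hab))
  exact ⟨(ψ.trans (Equiv.ofBijective φ (Finite.injective_iff_bijective.1 hφ))).trans ψ.symm,
    fun i => by simp only [Equiv.trans_apply, Equiv.apply_symm_apply]; rfl⟩

/-- for `q = 2` a decomposition into planes refines to a frame -/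
theorem frame_of_planes [Fintype F] (hF : Fintype.card F = 2 ^ 2) (hσ : ∀ a, S.σ a = a ^ 2)
    (hε : S.ε = 1) {t : ℕ} {D : Fin t → Submodule F (ι → F)}
    (hD : IsNondegenerateMDecomposition S.f 2 D) {H : Subgroup (GL ι F)} (hH : H ≤ S.Isom)
    (hle : H ≤ decompositionStabilizer D) :
    ∃ D : Fin (Fintype.card ι) → Submodule F (ι → F), IsNondegenerateMDecomposition S.f 1 D ∧
      H ≤ decompositionStabilizer D := by
  have ht := hD.decomp.two_le
  have hex := fun i => S.exists_norm_one (pow_ne_id hF hσ) hε (hD.nondegenerate i)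
    (IsMDecomposition.ne_bot hD.decomp i)
  obtain ⟨D', a, b, -⟩ := PreFrame.exists_frame' (S := S) (H := H) (d := 1)
    (T := {v | (∃ i, v ∈ D i) ∧ S.f v v = 1}) ⟨hε, one_ne_zero, fun _ h => h.2, by
      rintro v ⟨⟨i, hi⟩, hv⟩ w ⟨⟨j, hj⟩, hw⟩
      by_cases hij : j = i
      · subst hij
        exact S.pair_two hF hσ hε (hD.nondegenerate j) (hD.decomp.finrank_eq j) hi hj hv hw
      · exact Or.inl (hD.orthogonal j i hij w hj v hi), hH, by
      rintro g hg v ⟨⟨i, hi⟩, hv⟩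
      obtain ⟨τ, hτ⟩ := hle hg
      exact ⟨⟨τ i, mulVec_mem_of_map_eq (hτ i) hi⟩, (hH hg v v).trans hv⟩, by
      obtain ⟨v, h1, h2⟩ := hex ⟨0, by omega⟩
      exact ⟨v, ⟨_, h1⟩, h2⟩⟩ (by rw [← IsMDecomposition.mul_eq_card hD.decomp]; omega) (by
      rw [eq_top_iff, ← hD.decomp.iSup_eq_top]
      refine iSup_le fun i x hx => ?_
      obtain ⟨v, h1, h2⟩ := hex i
      have hv : v ∈ Submodule.span F {v | (∃ i, v ∈ D i) ∧ S.f v v = 1} :=
        Submodule.subset_span ⟨⟨i, h1⟩, h2⟩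
      rw [← sub_add_cancel x (S.f x v • v)]
      refine add_mem ?_ (Submodule.smul_mem _ _ hv)
      set u := x - S.f x v • v with hu
      have huv : S.f u v = 0 := by rw [hu, sub_left, smul_left, h2, mul_one, sub_self]
      have huD : u ∈ D i := sub_mem hx (Submodule.smul_mem _ _ h1)
      by_cases huu : S.f u u = 0
      · rcases S.pair_two hF hσ hε (hD.nondegenerate i) (hD.decomp.finrank_eq i) h1
          (add_mem h1 huD) h2 (by
            rw [add_left, add_right, add_right, h2, huv, huu, S.eq_zero_symm huv]; simp)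
          with h | ⟨a, h⟩
        · rw [add_left, h2, huv, add_zero] at h; exact absurd h one_ne_zero
        · rw [← add_sub_cancel_left v u, h]; exact sub_mem (Submodule.smul_mem _ _ hv) hv
      · have := S.symm u u
        rw [hε, one_mul, hσ, sq, left_eq_mul₀ huu] at this
        exact Submodule.subset_span ⟨⟨i, huD⟩, this⟩)
  exact ⟨D', a, b⟩

theorem ne_top_of_ts {W : Submodule F (ι → F)} (h0 : W ≠ ⊥) (h : IsTotallySingularFor S.f W) :
    W ≠ ⊤ := by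
  rintro rfl
  rw [isTotallySingularFor_iff, perp_top] at h
  exact h0 (le_bot_iff.1 h)

theorem ne_top_of_lt {W : Submodule F (ι → F)} (h : 2 * finrank F W < Fintype.card ι) : W ≠ ⊤ := by
  rintro rfl
  rw [finrank_top, Module.finrank_fintype_fun_eq_card] at h
  omega

end SF

/-- The list of cases for a maximal subgroup of `SU_n(q)`. -/
theorem su_max_cases [Fintype F] {n q : ℕ} (hF : Fintype.card F = q ^ 2) (hn : 3 ≤ n)
    (hex : ¬ (n = 3 ∧ q = 2)) {H : Subgroup (GL (Fin n) F)}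
    (hH : IsMaximalIn (GU n F q ⊓ specialLinear (Fin n) F) H) :
    (∃ W : Submodule F (Fin n → F), W ≠ ⊥ ∧ IsTotallySingularFor (hermForm n F q) W ∧
      H = subspaceStabilizer W ⊓ (GU n F q ⊓ specialLinear (Fin n) F)) ∨
    (∃ W : Submodule F (Fin n → F), W ≠ ⊥ ∧ IsNondegenerateOn (hermForm n F q) W ∧
      2 * finrank F W < n ∧ H = subspaceStabilizer W ⊓ (GU n F q ⊓ specialLinear (Fin n) F)) ∨
    (∃ (t k : ℕ) (D : Fin t → Submodule F (Fin n → F)), t * k = n ∧ 2 ≤ t ∧ (k = 2 → 3 ≤ q) ∧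
      IsNondegenerateMDecomposition (hermForm n F q) k D ∧
      H = decompositionStabilizer D ⊓ (GU n F q ⊓ specialLinear (Fin n) F)) ∨
    (∃ (k : ℕ) (D : Fin 2 → Submodule F (Fin n → F)), 2 * k = n ∧ IsMDecomposition k D ∧
      (∀ i, IsTotallySingularFor (hermForm n F q) (D i)) ∧
      H = decompositionStabilizer D ⊓ (GU n F q ⊓ specialLinear (Fin n) F)) ∨
    (∃ (r : ℕ) (K : Subalgebra F (Matrix (Fin n) (Fin n) F)), r.Prime ∧ Odd r ∧ r ∣ n ∧
      IsFieldSubalgebra r K ∧ IsAdjointClosedFor (hermForm n F q) K ∧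
      H = subalgebraNormalizer K ⊓ (GU n F q ⊓ specialLinear (Fin n) F)) ∨
    (∃ (n₁ n₂ : ℕ) (e : Fin n ≃ Fin n₁ × Fin n₂) (P : GL (Fin n) F)
      (f₁ : (Fin n₁ → F) → (Fin n₁ → F) → F) (f₂ : (Fin n₂ → F) → (Fin n₂ → F) → F),
      n₁ * n₂ = n ∧ 2 ≤ n₁ ∧ n₁ < n₂ ∧ (n₁ = 2 → 3 ≤ q) ∧ IsUnitaryFormPow q f₁ ∧
      IsUnitaryFormPow q f₂ ∧
      IsTensorFormStructure (fun x : F => x ^ q) (hermForm n F q) f₁ f₂ e P ∧
      H = tensorProductSubgroup n₁ n₂ e P ⊓ (GU n F q ⊓ specialLinear (Fin n) F)) ∨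
    (∃ (F₀ : Subfield F) (r : ℕ) (P : GL (Fin n) F), r.Prime ∧ Odd r ∧
      Fintype.card F = Nat.card F₀ ^ r ∧ IsFormRationalStructure (hermForm n F q) F₀ 1 P ∧
      H = subfieldSubgroup F₀ P ⊓ (GU n F q ⊓ specialLinear (Fin n) F)) ∨
    (Even n ∧ ∃ (F₀ : Subfield F) (P : GL (Fin n) F) (ζ : F), Fintype.card F = Nat.card F₀ ^ 2 ∧
      ζ ≠ 0 ∧ ζ + ζ ^ q = 0 ∧ IsFormRationalStructure (hermForm n F q) F₀ ζ P ∧
      (∀ u : Fin n → F, (∀ i, u i ∈ F₀) → hermForm n F q ((P : Matrix (Fin n) (Fin n) F) *ᵥ u)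
        ((P : Matrix (Fin n) (Fin n) F) *ᵥ u) = 0) ∧
      H = subfieldSubgroup F₀ P ⊓ (GU n F q ⊓ specialLinear (Fin n) F)) ∨
    (Odd q ∧ ∃ (F₀ : Subfield F) (P : GL (Fin n) F), Fintype.card F = Nat.card F₀ ^ 2 ∧
      IsFormRationalStructure (hermForm n F q) F₀ 1 P ∧
      H = subfieldSubgroup F₀ P ⊓ (GU n F q ⊓ specialLinear (Fin n) F)) ∨
    (∃ (r k p : ℕ) (R : Subgroup (GL (Fin n) F)), r.Prime ∧ r ^ k = n ∧ p.Prime ∧ CharP F p ∧
      IsSymplecticTypeGroup r R ∧ ActsAbsolutelyIrreducibly (matrixSet R) ∧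
      R ≤ similarityGroup (hermForm n F q) ∧
      ((Odd r ∧ R ≤ GU n F q ∧ (∃ e, IsMinimalFieldFor r p e F) ∧ Nat.card R = r ^ (1 + 2 * k) ∧
        Nat.card (Subgroup.center R) = r) ∨
       (r = 2 ∧ q = p ∧ p % 4 = 3 ∧ Nat.card R = 2 ^ (2 + 2 * k) ∧
        Nat.card (Subgroup.center R) = 4)) ∧ IsEA r R ∧
      H = subgroupNormalizer R ⊓ (GU n F q ⊓ specialLinear (Fin n) F)) ∨
    (∃ (k t : ℕ) (e : Fin n ≃ (Fin t → Fin k)) (P : GL (Fin n) F)
      (f₁ : (Fin k → F) → (Fin k → F) → F), k ^ t = n ∧ 3 ≤ k ∧ 2 ≤ t ∧ (k = 3 → 3 ≤ q) ∧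
      IsUnitaryFormPow q f₁ ∧ IsTensorPowerFormStructure (fun x : F => x ^ q) (hermForm n F q) f₁ e P ∧
      H = tensorWreathSubgroup k t e P ⊓ (GU n F q ⊓ specialLinear (Fin n) F)) ∨
    InUnitaryResidualClass H := by
  obtain ⟨S, hσ, hε, -, hf, hI⟩ := exists_uSF n hF
  have : Nontrivial (Fin n) := Fin.nontrivial_iff_two_le.2 (by omega)
  have : H11.U.IsSq F q := ⟨hF⟩
  have hq := H11.U.two_le_q F q
  have hG := tg_su (F := F) hn hex
  have hH' : H ≤ S.Isom := hI ▸ hH.1.le.trans inf_le_left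
  have E := fun {M} => H10.Asch.IsMaximalIn.eq_inf (M := M) hH
  rw [← hf]
  rcases S.u_main hF hσ hε hH' with ⟨W, a, b, c⟩ | ⟨W, a, b, c, d⟩ | ⟨t, k, D, a, b⟩ |
    ⟨k, D, a, b, c, d⟩ | ⟨r, K, a, b, c, d, e⟩ | ⟨n₁, n₂, e, P, f₁, f₂, a, b, b', c, d, g, h⟩ |
    (⟨F₀, r, P, a, b, c, d, e⟩ | ⟨F₀, P, a, b, c, d⟩ | ⟨F₀, P, ζ, a, b, c, d, e, g, h⟩) |
    ⟨r, R, p, e, k, a, b, c, d, g, h, i, j, l, m⟩ | ⟨k, t, e, P, f₁, a, b, c, d, g, h⟩ | h
  · exact Or.inl ⟨W, a, b, E c (hG.not_le_subspaceStabilizer a (S.ne_top_of_ts a b))⟩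
  · exact Or.inr (Or.inl ⟨W, a, b, by simpa using c,
      E d (hG.not_le_subspaceStabilizer a (SF.ne_top_of_lt c))⟩)
  · refine Or.inr (Or.inr (Or.inl ?_))
    by_cases h : k = 2 ∧ q = 2
    · obtain ⟨rfl, rfl⟩ := h
      obtain ⟨D', a', b'⟩ := S.frame_of_planes hF hσ hε a hH' b
      exact ⟨_, 1, D', by simp, by simp; omega, by omega, a',
        E b' (hG.not_le_decompositionStabilizer a'.decomp)⟩
    · exact ⟨t, k, D, by simpa using IsMDecomposition.mul_eq_card a.decomp, a.decomp.two_le,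
        by omega, a, E b (hG.not_le_decompositionStabilizer a.decomp)⟩
  · exact Or.inr (Or.inr (Or.inr (Or.inl ⟨k, D, by simpa using a, b, c,
      E d (hG.not_le_decompositionStabilizer b)⟩)))
  · exact Or.inr (Or.inr (Or.inr (Or.inr (Or.inl ⟨r, K, a, b,
      by simpa using IsFieldSubalgebra.dvd_card c, c, d,
      E e (TG.not_le_subalgebraNormalizer (by simpa) hG a.two_le c)⟩))))
  · exact Or.inr (Or.inr (Or.inr (Or.inr (Or.inr (Or.inl ⟨n₁, n₂, e, P, f₁, f₂,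
      by simpa using (Fintype.card_congr e).symm, a, b, by omega, c, d, g,
      E h (hG.not_le_tensorProductSubgroup a (by omega) e P)⟩)))))
  · exact Or.inr (Or.inr (Or.inr (Or.inr (Or.inr (Or.inr (Or.inl ⟨F₀, r, P, a, b, c, d,
      E e (su_not_le_subfieldSubgroup hn (ne_top_of_card a.two_le c) P)⟩))))))
  · exact Or.inr (Or.inr (Or.inr (Or.inr (Or.inr (Or.inr (Or.inr (Or.inr (Or.inl ⟨a, F₀, P, b, c,
      E d (su_not_le_subfieldSubgroup hn (ne_top_of_card le_rfl b) P)⟩))))))))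
  · exact Or.inr (Or.inr (Or.inr (Or.inr (Or.inr (Or.inr (Or.inr (Or.inl ⟨by simpa using a, F₀, P, ζ,
      b, c, d, e, g, E h (su_not_le_subfieldSubgroup hn (ne_top_of_card le_rfl b) P)⟩)))))))
  · refine Or.inr (Or.inr (Or.inr (Or.inr (Or.inr (Or.inr (Or.inr (Or.inr (Or.inr (Or.inl
      ⟨r, k, p, R, l.prime, by simpa using j.symm, g.1, g.2.1, a, b, c, ?_, l,
        E i (hG.not_le_subgroupNormalizer l (nrmS_su (hf ▸ c)))⟩)))))))))
    rcases h with ⟨h1, h2, -, h3⟩ | ⟨rfl, rfl, h2, h3⟩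
    · exact Or.inl ⟨h1, hI ▸ m h1, ⟨e, h2 ▸ g⟩, h3, h2⟩
    · have := minField_four (h2 ▸ g) hF
      exact Or.inr ⟨rfl, this.1, this.2, h3, h2⟩
  · exact Or.inr (Or.inr (Or.inr (Or.inr (Or.inr (Or.inr (Or.inr (Or.inr (Or.inr (Or.inr (Or.inl
      ⟨k, t, e, P, f₁, by simpa using (Fintype.card_congr e).symm, a, b, by omega, d, g,
        E h (hG.not_le_tensorWreathSubgroup (by omega) b (Or.inl a) e P)⟩))))))))))
  · exact Or.inr (Or.inr (Or.inr (Or.inr (Or.inr (Or.inr (Or.inr (Or.inr (Or.inr (Or.inr (Or.inr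
      h))))))))))

theorem minField_three [Fintype F] {p e q : ℕ} (h : IsMinimalFieldFor 3 p e F)
    (hF : Fintype.card F = q ^ 2) : q = p ∧ p % 3 = 2 := by
  obtain ⟨j, h1, h2, rfl, h3⟩ := minField h hF (by norm_num) (by decide)
  have : ∀ a < 3, ∀ j < 2, 0 < j → a ^ (2 * j) % 3 = 1 →
    (∀ d < 2 * j, 0 < d → a ^ d % 3 ≠ 1) → j = 1 ∧ a = 2 := by
    set_option synthInstance.maxSize 2000 in decide
  obtain ⟨rfl, h4⟩ := this _ (Nat.mod_lt _ (by norm_num)) j (by omega) h2 h3.1 h3.2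
  exact ⟨pow_one p, h4⟩

theorem minField_five [Fintype F] {p e q : ℕ} (h : IsMinimalFieldFor 5 p e F)
    (hF : Fintype.card F = q ^ 2) :
    (q = p ∧ p % 5 = 4) ∨ (q = p ^ 2 ∧ (p % 5 = 2 ∨ p % 5 = 3)) := by
  obtain ⟨j, h1, h2, rfl, h3⟩ := minField h hF (by norm_num) (by decide)
  have : ∀ a < 5, ∀ j < 3, 0 < j → a ^ (2 * j) % 5 = 1 →
    (∀ d < 2 * j, 0 < d → a ^ d % 5 ≠ 1) → (j = 1 ∧ a = 4) ∨ (j = 2 ∧ (a = 2 ∨ a = 3)) := by
    set_option synthInstance.maxSize 2000 in decide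
  rcases this _ (Nat.mod_lt _ (by norm_num)) j (by omega) h2 h3.1 h3.2 with ⟨rfl, h4⟩ | ⟨rfl, h4⟩
  exacts [Or.inl ⟨pow_one p, h4⟩, Or.inr ⟨rfl, h4⟩]

theorem minField_seven [Fintype F] {p e q : ℕ} (h : IsMinimalFieldFor 7 p e F)
    (hF : Fintype.card F = q ^ 2) :
    (q = p ∧ p % 7 = 6) ∨ (q = p ^ 3 ∧ (p % 7 = 3 ∨ p % 7 = 5)) := by
  obtain ⟨j, h1, h2, rfl, h3⟩ := minField h hF (by norm_num) (by decide)
  have : ∀ a < 7, ∀ j < 4, 0 < j → a ^ (2 * j) % 7 = 1 →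
    (∀ d < 2 * j, 0 < d → a ^ d % 7 ≠ 1) → (j = 1 ∧ a = 6) ∨ (j = 3 ∧ (a = 3 ∨ a = 5)) := by
    set_option synthInstance.maxSize 2000 in decide
  rcases this _ (Nat.mod_lt _ (by norm_num)) j (by omega) h2 h3.1 h3.2 with ⟨rfl, h4⟩ | ⟨rfl, h4⟩
  exacts [Or.inl ⟨pow_one p, h4⟩, Or.inr ⟨rfl, h4⟩]

theorem minField_eleven [Fintype F] {p e q : ℕ} (h : IsMinimalFieldFor 11 p e F)
    (hF : Fintype.card F = q ^ 2) : (q = p ∧ p % 11 = 10) ∨
      (q = p ^ 5 ∧ (p % 11 = 2 ∨ p % 11 = 6 ∨ p % 11 = 7 ∨ p % 11 = 8)) := by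
  obtain ⟨j, h1, h2, rfl, h3⟩ := minField h hF (by norm_num) (by decide)
  have : ∀ a < 11, ∀ j < 6, 0 < j → a ^ (2 * j) % 11 = 1 →
    (∀ d < 2 * j, 0 < d → a ^ d % 11 ≠ 1) →
      (j = 1 ∧ a = 10) ∨ (j = 5 ∧ (a = 2 ∨ a = 6 ∨ a = 7 ∨ a = 8)) := by
    set_option synthInstance.maxSize 2000 in decide +kernel
  rcases this _ (Nat.mod_lt _ (by norm_num)) j (by omega) h2 h3.1 h3.2 with ⟨rfl, h4⟩ | ⟨rfl, h4⟩
  exacts [Or.inl ⟨pow_one p, h4⟩, Or.inr ⟨rfl, h4⟩]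

/-- divisor enumeration -/
theorem mul_eq_cases {t k n : ℕ} (h : t * k = n) (hn : n ≠ 0) : (t, k) ∈ n.divisorsAntidiagonal :=
  Nat.mem_divisorsAntidiagonal.2 ⟨h, hn⟩

theorem pow_eq_cases {r k n : ℕ} (h : r ^ k = n) (hr : 2 ≤ r) (hn : 2 ≤ n) :
    r ≤ n ∧ k < n ∧ 1 ≤ k := by
  have hk : 1 ≤ k := by
    by_contra h0
    obtain rfl : k = 0 := by omega
    simp at h; omega
  exact ⟨h ▸ Nat.le_self_pow (by omega) r, h ▸ Nat.lt_pow_self hr, hk⟩

end H28.AF
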