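import Cfsg.Agent.Lib.AschF.Sub

/-!
Tensor power decompositions compatible with a form.
-/

set_option autoImplicit false
set_option linter.unusedSectionVars false

namespace H28.AF

open Matrix Cfsg Cfsg.Geo H10.Asch Module
open scoped MatrixGroups Kronecker commutatorElement

variable {ι : Type} [Fintype ι] [DecidableEq ι] {F : Type*} [Field F]

theorem exists_sc_of_cj_eq [Nonempty ι] {a b : GL ι F} (h : ∀ x, cj a x = cj b x) :
    ∃ l : Fˣ, a = sc ι F l * b := by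
  obtain ⟨c, hc⟩ := scalar_of_forall_comm (x := ((a * b⁻¹ : GL ι F) : Matrix ι ι F)) fun y => by
    rw [← cj_eq_iff, cj_mul, h, cj_cj_inv]
  obtain ⟨l, hl⟩ := mem_scalars_iff'.1 (mem_scalars_of_eq_smul hc)
  exact ⟨l, by rw [hl, inv_mul_cancel_right]⟩

theorem cj_sc_mul (c : Fˣ) (g : GL ι F) (x : Matrix ι ι F) : cj (sc ι F c * g) x = cj g x := by
  rw [cj_mul, cj_of_mem_scalars (sc_mem c)]

theorem trGL_sc {κ : Type} [Fintype κ] [DecidableEq κ] (e : ι ≃ κ) (P : GL ι F) (c : Fˣ) :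
    trGL e P (sc κ F c) = sc ι F c :=
  Units.ext (by rw [coe_trGL, coe_sc, coe_sc, map_smul, map_one])

theorem trace_tr {κ : Type} [Fintype κ] [DecidableEq κ] (e : ι ≃ κ) (P : GL ι F)
    (x : Matrix κ κ F) : (tr e P x).trace = x.trace := by
  rw [tr_apply, trace_cj, Matrix.trace, Matrix.trace, ← e.sum_comp]; rfl

theorem tr_mul_reindex {κ : Type} [Fintype κ] [DecidableEq κ] (e : ι ≃ κ) (P : GL ι F)
    (g : GL κ F) (x : Matrix κ κ F) : tr e (P * glReindex e.symm g) x = tr e P (cj g x) := by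
  rw [tr_apply, tr_apply, cj_mul, cj_apply (glReindex e.symm g), cj_apply g, ← map_inv,
    ← submatrix_mul_equiv _ _ _ e, ← submatrix_mul_equiv _ _ _ e]
  rfl

theorem trGL_mul_reindex {κ : Type} [Fintype κ] [DecidableEq κ] (e : ι ≃ κ) (P : GL ι F)
    (g x : GL κ F) : trGL e (P * glReindex e.symm g) x = trGL e P (g * x * g⁻¹) :=
  Units.ext (by rw [coe_trGL, coe_trGL, tr_mul_reindex, cj_coe])

namespace SF

variable (S : SF ι F)

theorem coe_pull_refl_G (g : GL ι F) : ((S.pull (Equiv.refl ι) g).G : Matrix ι ι F) =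
    (g : Matrix ι ι F)ᵀ * (S.G : Matrix ι ι F) * (g : Matrix ι ι F).map S.σ := rfl

theorem coe_pull_mul_G {κ : Type} [Fintype κ] [DecidableEq κ] (e : ι ≃ κ) (P : GL ι F)
    (g : GL κ F) : ((S.pull e (P * glReindex e.symm g)).G : Matrix κ κ F) =
      (g : Matrix κ κ F)ᵀ * ((S.pull e P).G : Matrix κ κ F) * (g : Matrix κ κ F).map S.σ := by
  apply gform_inj (σ := S.σ)
  intro u v
  have : ∀ u : κ → F, ((P * glReindex e.symm g : GL ι F) : Matrix ι ι F) *ᵥ (u ∘ e) =
      (P : Matrix ι ι F) *ᵥ (((g : Matrix κ κ F) *ᵥ u) ∘ e) := fun u => by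
    rw [Units.val_mul, ← mulVec_mulVec, coe_glReindex, Equiv.symm_symm, submatrix_mulVec_equiv,
      Function.comp_assoc, e.self_comp_symm, Function.comp_id]
  rw [← gform_mulVec]
  exact ((S.pull_f _ _ u v).trans (by rw [this, this])).trans (S.pull_f e P _ _).symm

theorem mem_sim_of_st_cj [Nonempty ι] {g : GL ι F} (h : ∀ a, S.st (cj g a) = cj g (S.st a)) :
    g ∈ similarityGroup S.f := by
  obtain ⟨c, hc⟩ := scalar_of_forall_comm (x := S.st g * (g : Matrix ι ι F)) fun y => by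
    have := congrArg S.st (cj_mul_self g (S.st y))
    rw [st_mul, st_mul, h, st_st] at this
    rw [mul_assoc, ← cj_mul_self g y, ← mul_assoc, this, mul_assoc]
  exact S.mem_sim_of_st hc

theorem exists_sc_of_st_eq [Nonempty ι] (S' : SF ι F) (hσ : S'.σ = S.σ)
    (h : ∀ a, S'.st a = S.st a) : ∃ l : Fˣ, S'.G = sc ι F l * S.G := by
  apply exists_sc_of_cj_eq
  intro x
  have h1 := S.transpose_st (x.map S.σ)
  have h2 := S'.transpose_st (x.map S.σ)
  rw [hσ, h] at h2
  rw [map_map_invol S.σσ] at h1 h2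
  rw [← h1, ← h2]

/-- orthonormal bases -/
theorem exists_pull_eq_one [Finite F] {k : ℕ} (S : SF (Fin k) F) (hne : S.σ ≠ RingHom.id F)
    (hε : S.ε = 1) : ∃ g : GL (Fin k) F, (S.pull (Equiv.refl _) g).G = 1 := by
  have := exists_orthonormal_basis_herm hne S.σσ S.B
    (fun x y => by rw [B_apply, B_apply, S.symm y x, hε, one_mul]) S.B_sep
  rw [Module.finrank_fin_fun] at this
  obtain ⟨b, hb⟩ := this
  let g : GL (Fin k) F := ⟨(Pi.basisFun F (Fin k)).toMatrix b, b.toMatrix (Pi.basisFun F (Fin k)),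
    Basis.toMatrix_mul_toMatrix_flip _ _, Basis.toMatrix_mul_toMatrix_flip _ _⟩
  have hg : ∀ i, (g : Matrix (Fin k) (Fin k) F) *ᵥ Pi.single i 1 = b i := fun i => by
    ext j; simp [g, Basis.toMatrix_apply]
  refine ⟨g, Units.ext ?_⟩
  ext i j
  have := S.f_gr g (Pi.single i 1) (Pi.single j 1)
  rw [gform_single, hg, hg, ← B_apply, hb] at this
  rw [Units.val_one, one_apply, if_congr eq_comm rfl rfl]
  exact this.symm

end SF

section Wr

variable {t k : ℕ}

theorem ptensGL_prop [NeZero k] {a b : Fin t → GL (Fin k) F} {c : Fˣ}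
    (h : ptensGL a = sc _ F c * ptensGL b) (i : Fin t) : ∃ l : Fˣ, a i = sc _ F l * b i :=
  exists_sc_of_cj_eq fun x => fac_injective i (by
    rw [← cj_ptensGL_fac, ← cj_ptensGL_fac, h, cj_sc_mul])

theorem ptensGL_sc_mul (c : Fin t → Fˣ) (a : Fin t → GL (Fin k) F) :
    ptensGL (fun i => sc _ F (c i) * a i) = sc _ F (∏ i, c i) * ptensGL a :=
  Units.ext (by
    rw [coe_sc_mul, coe_ptensGL, coe_ptensGL, Units.coe_prod, ← ptens_smul]
    simp only [coe_sc_mul])

theorem trace_ptens (a : Fin t → Matrix (Fin k) (Fin k) F) :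
    (ptens a).trace = ∏ i, (a i).trace := by
  simp only [Matrix.trace, diag_apply, ptens_apply, Finset.prod_univ_sum, Fintype.piFinset_univ]

/-- pure tensors in the coordinates `(e, P)` -/
def whom (e : ι ≃ (Fin t → Fin k)) (P : GL ι F) : (Fin t → GL (Fin k) F) →* GL ι F where
  toFun s := trGL e P (ptensGL s)
  map_one' := by rw [ptensGL_one, map_one]
  map_mul' s s' := by rw [ptensGL_mul, map_mul]

theorem whom_apply (e : ι ≃ (Fin t → Fin k)) (P : GL ι F) (s : Fin t → GL (Fin k) F) :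
    whom e P s = trGL e P (ptensGL s) := rfl

theorem coe_whom_mulSingle (e : ι ≃ (Fin t → Fin k)) (P : GL ι F) (i : Fin t) (a : GL (Fin k) F) :
    (whom e P (Pi.mulSingle i a) : Matrix ι ι F) = tr e P (fac i (a : Matrix (Fin k) (Fin k) F)) := by
  rw [whom_apply, coe_trGL, coe_ptensGL, fac_apply]
  congr 2
  funext j
  exact Pi.apply_mulSingle (fun _ (g : GL (Fin k) F) => (g : Matrix (Fin k) (Fin k) F))
    (fun _ => rfl) i a j

/-- the central product of copies of `R` -/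
def wr (e : ι ≃ (Fin t → Fin k)) (P : GL ι F) (R : Subgroup (GL (Fin k) F)) : Subgroup (GL ι F) :=
  (Subgroup.pi Set.univ fun _ => R).map (whom e P)

theorem mem_wr {e : ι ≃ (Fin t → Fin k)} {P : GL ι F} {R : Subgroup (GL (Fin k) F)} {g : GL ι F} :
    g ∈ wr e P R ↔ ∃ s : Fin t → GL (Fin k) F, (∀ i, s i ∈ R) ∧ whom e P s = g :=
  ⟨fun ⟨s, hs, h⟩ => ⟨s, fun i => hs i trivial, h⟩, fun ⟨s, hs, h⟩ => ⟨s, fun i _ => hs i, h⟩⟩

theorem mulSingle_mem_wr (e : ι ≃ (Fin t → Fin k)) (P : GL ι F) {R : Subgroup (GL (Fin k) F)}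
    (i : Fin t) {a : GL (Fin k) F} (ha : a ∈ R) : whom e P (Pi.mulSingle i a) ∈ wr e P R :=
  mem_wr.2 ⟨_, fun j => by
    by_cases h : j = i
    · subst h; rwa [Pi.mulSingle_eq_same]
    · rw [Pi.mulSingle_eq_of_ne h]; exact one_mem _, rfl⟩

theorem spanA_wr (e : ι ≃ (Fin t → Fin k)) (P : GL ι F) {R : Subgroup (GL (Fin k) F)}
    (hR : spanA F R = ⊤) : spanA F (wr e P R) = ⊤ := by
  have := eq_top_of_fac ((spanA F (wr e P R)).comap (tr e P).toAlgHom) fun i a => by
    refine spanA_induction (p := fun a => tr e P (fac i a) ∈ spanA F (wr e P R)) ?_ ?_ ?_ ?_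
      (hR ▸ Algebra.mem_top : a ∈ spanA F R)
    · intro g hg; rw [← coe_whom_mulSingle]; exact coe_mem_spanA (mulSingle_mem_wr e P i hg)
    · rw [map_zero, map_zero]; exact zero_mem _
    · intro x y hx hy; rw [map_add, map_add]; exact add_mem hx hy
    · intro c x hx; rw [map_smul, map_smul]; exact Subalgebra.smul_mem _ hx c
  rw [eq_top_iff]
  intro x _
  obtain ⟨y, rfl⟩ := (tr e P).surjective x
  exact (this ▸ Algebra.mem_top : y ∈ (spanA F (wr e P R)).comap (tr e P).toAlgHom)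

theorem whom_mem_scalars (e : ι ≃ (Fin t → Fin k)) (P : GL ι F) {s : Fin t → GL (Fin k) F}
    (hs : ∀ i, s i ∈ scalars (Fin k) F) : whom e P s ∈ scalars ι F := by
  choose c hc using fun i => mem_scalars_iff'.1 (hs i)
  have : s = fun i => sc _ F (c i) * (1 : Fin t → GL (Fin k) F) i := funext fun i => by simp [hc]
  rw [this, whom_apply, ptensGL_sc_mul, ptensGL_one, mul_one, trGL_sc]
  exact sc_mem _

theorem isEA_wr (e : ι ≃ (Fin t → Fin k)) (P : GL ι F) {r : ℕ} {R : Subgroup (GL (Fin k) F)}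
    (hR : IsEA r R) : IsEA r (wr e P R) where
  prime := hR.prime
  span := spanA_wr e P hR.span
  comm := Subgroup.commutator_le.2 fun a ha b hb => by
    obtain ⟨s, hs, rfl⟩ := mem_wr.1 ha
    obtain ⟨s', hs', rfl⟩ := mem_wr.1 hb
    rw [← map_commutatorElement]
    exact whom_mem_scalars e P fun i => hR.comm (Subgroup.commutator_mem_commutator (hs i) (hs' i))
  pow a ha := by
    obtain ⟨s, hs, rfl⟩ := mem_wr.1 ha
    rw [← map_pow]
    exact whom_mem_scalars e P fun i => hR.pow _ (hs i)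

theorem trace_whom (e : ι ≃ (Fin t → Fin k)) (P : GL ι F) (s : Fin t → GL (Fin k) F) :
    (whom e P s : Matrix ι ι F).trace = ∏ i, (s i : Matrix (Fin k) (Fin k) F).trace := by
  rw [whom_apply, coe_trGL, trace_tr, coe_ptensGL, trace_ptens]

/-- A tensor power decomposition of the form `S` stabilised by `H`. -/
structure IsWr (S : SF ι F) (H : Subgroup (GL ι F)) (e : ι ≃ (Fin t → Fin k)) (P : GL ι F)
    (T : Fin t → SF (Fin k) F) : Prop where
  σ : ∀ i, (T i).σ = S.σ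
  G : ∃ c : Fˣ, (S.pull e P).G = sc _ F c * ptensGL fun i => (T i).G
  le : H ≤ tensorWreathSubgroup k t e P

namespace IsWr

variable {S : SF ι F} {H : Subgroup (GL ι F)} {e : ι ≃ (Fin t → Fin k)} {P : GL ι F}
  {T : Fin t → SF (Fin k) F}

theorem card_eq (_ : IsWr S H e P T) : Fintype.card ι = k ^ t := by
  rw [Fintype.card_congr e]; simp

theorem st_ptens (W : IsWr S H e P T) (a : Fin t → Matrix (Fin k) (Fin k) F) :
    S.st (tr e P (ptens a)) = tr e P (ptens fun i => (T i).st (a i)) := by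
  obtain ⟨c, hc⟩ := W.G
  rw [SF.st_tr]
  congr 1
  rw [← transpose_transpose ((S.pull e P).st _), SF.transpose_st, hc, cj_sc_mul, ptens_map,
    cj_ptensGL, ptens_transpose]
  congr 1
  funext i
  rw [SF.pull_σ, ← W.σ i, ← SF.transpose_st, transpose_transpose]

theorem st_fac (W : IsWr S H e P T) (i : Fin t) (a : Matrix (Fin k) (Fin k) F) :
    S.st (tr e P (fac i a)) = tr e P (fac i ((T i).st a)) := by
  rw [fac_apply, W.st_ptens, fac_apply]
  congr 2
  funext j
  exact Pi.apply_mulSingle (fun j => (T j).st) (fun j => (T j).st_one) i a j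

theorem of_prop (W : IsWr S H e P T) {T' : Fin t → SF (Fin k) F} (hσ : ∀ i, (T' i).σ = S.σ)
    (h : ∀ i, ∃ l : Fˣ, (T i).G = sc _ F l * (T' i).G) : IsWr S H e P T' := by
  choose l hl using h
  obtain ⟨c, hc⟩ := W.G
  refine ⟨hσ, ⟨c * ∏ i, l i, ?_⟩, W.le⟩
  rw [hc, map_mul, mul_assoc, ← ptensGL_sc_mul]
  simp only [hl]

theorem change (W : IsWr S H e P T) (s : Fin t → GL (Fin k) F) :
    IsWr S H e (P * glReindex e.symm (ptensGL s)) fun i => (T i).pull (Equiv.refl _) (s i) where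
  σ := W.σ
  G := by
    obtain ⟨c, hc⟩ := W.G
    refine ⟨c, Units.ext ?_⟩
    rw [SF.coe_pull_mul_G, hc, coe_sc_mul, coe_sc_mul, mul_smul_comm, smul_mul_assoc, coe_ptensGL,
      coe_ptensGL, coe_ptensGL, ptens_transpose, ptens_map, ← ptens_mul, ← ptens_mul]
    congr 2
    funext i
    rw [SF.coe_pull_refl_G, W.σ]; rfl
  le := fun g hg => by
    have h1 := (mem_tensorWreathSubgroup _ _ _).1 (W.le hg)
    have h2 : ptensGL s ∈ tensorWreathStandard k t F :=
      mem_tensorWreathStandard_iff.2 ⟨s, 1, by rw [map_one, mul_one]⟩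
    rw [mem_tensorWreathSubgroup]
    have : (trGL e (P * glReindex e.symm (ptensGL s))).symm g =
        (ptensGL s)⁻¹ * (trGL e P).symm g * ptensGL s := by
      rw [MulEquiv.symm_apply_eq, trGL_mul_reindex]
      simp [mul_assoc]
    rw [this]
    exact mul_mem (mul_mem (inv_mem h2) h1) h2

theorem isTensorPower {T₀ : SF (Fin k) F} (W : IsWr S H e P fun _ => T₀) :
    IsTensorPowerFormStructure S.σ S.f T₀.f e P := by
  obtain ⟨c, hc⟩ := W.G
  refine ⟨c, c.ne_zero, fun x y => ?_⟩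
  rw [← SF.pull_f, SF.f, hc, coe_sc_mul, gform_smul_mat, gform_eq_sum, SF.gram]
  rfl

theorem eps [NeZero k] (W : IsWr S H e P T) (hσ : ∀ a, S.σ a = a) : S.ε = ∏ i, (T i).ε := by
  obtain ⟨c, hc⟩ := W.G
  have h1 := (S.pull e P).herm
  have h2 : (fun i => cT S.σ ((T i).G : Matrix (Fin k) (Fin k) F)) =
      fun i => (T i).ε • ((T i).G : Matrix (Fin k) (Fin k) F) := funext fun i => by
    rw [← (T i).herm, W.σ]
  rw [hc, coe_sc_mul, cT_smul, SF.pull_σ, SF.pull_ε, hσ, smul_comm, coe_ptensGL, cT_ptens, h2,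
    ptens_smul, smul_comm, smul_comm (c : F) S.ε] at h1
  exact (smul_left_injective F (smul_ne_zero c.ne_zero
    (ptensGL fun i => (T i).G).ne_zero) h1).symm

theorem exists_sim [NeZero k] {T₀ : SF (Fin k) F} (W : IsWr S H e P fun _ => T₀)
    (hH : H ≤ similarityGroup S.f) {h : GL ι F} (hh : h ∈ H) :
    ∃ (s : Fin t → GL (Fin k) F) (τ : Equiv.Perm (Fin t)), (∀ i, s i ∈ similarityGroup T₀.f) ∧
      h = trGL e P (ptensGL s * fpermGL k F τ) := by
  obtain ⟨s, τ, hs⟩ := mem_tensorWreathStandard_iff.1 ((mem_tensorWreathSubgroup _ _ _).1 (W.le hh))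
  have h1 : h = trGL e P (ptensGL s * fpermGL k F τ) := by rw [← hs, MulEquiv.apply_symm_apply]
  refine ⟨s, τ, fun i => T₀.mem_sim_of_st_cj fun a => ?_, h1⟩
  obtain ⟨j, rfl⟩ := τ.surjective i
  have h2 : ∀ a, cj h (tr e P (fac j a)) = tr e P (fac (τ j) (cj (s (τ j)) a)) := fun a => by
    rw [h1, cj_trGL, cj_mul, cj_fpermGL_fac, cj_ptensGL_fac]
  apply fac_injective (τ j)
  apply (tr e P).injective
  rw [← W.st_fac, ← h2, ← h2, S.st_cj_of_sim (hH hh), W.st_fac]

theorem nrmS_wr [NeZero k] {T₀ : SF (Fin k) F} (W : IsWr S H e P fun _ => T₀)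
    (hH : H ≤ similarityGroup S.f) {R : Subgroup (GL (Fin k) F)}
    (hR : NrmS (similarityGroup T₀.f) R) : NrmS H (wr e P R) := by
  intro h hh x hx
  obtain ⟨s, τ, hs, rfl⟩ := W.exists_sim hH hh
  obtain ⟨a, ha, rfl⟩ := mem_wr.1 hx
  refine mem_wr.2 ⟨s * (a ∘ τ.symm) * s⁻¹, fun i => hR _ (hs i) _ (ha _), ?_⟩
  rw [whom_apply, whom_apply, ← map_inv, ← map_mul, ← map_mul, ptensGL_mul, ptensGL_mul,
    ptensGL_inv, mul_assoc (ptensGL s) (fpermGL k F τ), fpermGL_mul_ptensGL]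
  congr 1
  group

theorem whom_mem_isom (W : IsWr S H e P T) {s : Fin t → GL (Fin k) F} (hs : ∀ i, s i ∈ (T i).Isom) :
    whom e P s ∈ S.Isom := by
  rw [SF.mem_isom_iff_st, whom_apply, coe_trGL, coe_ptensGL, W.st_ptens, ← map_mul, ← ptens_mul]
  have : ((fun i => (T i).st (s i)) * fun i => (s i : Matrix (Fin k) (Fin k) F)) = 1 :=
    funext fun i => (T i).mem_isom_iff_st.1 (hs i)
  rw [this, ptens_one, map_one]

theorem wr_le_isom {T₀ : SF (Fin k) F} (W : IsWr S H e P fun _ => T₀) {R : Subgroup (GL (Fin k) F)}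
    (hR : R ≤ T₀.Isom) : wr e P R ≤ S.Isom := fun g hg => by
  obtain ⟨s, hs, rfl⟩ := mem_wr.1 hg
  exact W.whom_mem_isom fun i => hR (hs i)

theorem mem_isom_of_fac [NeZero k] (W : IsWr S H e P T) {i : Fin t} {a : GL (Fin k) F}
    (h : whom e P (Pi.mulSingle i a) ∈ S.Isom) : a ∈ (T i).Isom := by
  rw [SF.mem_isom_iff_st] at h ⊢
  rw [coe_whom_mulSingle, W.st_fac, ← map_mul, ← map_mul] at h
  exact fac_injective i ((tr e P).injective (by rw [h, map_one, map_one]))

end IsWr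

theorem SF.not_prim_of_set (S : SF ι F) {H : Subgroup (GL ι F)} (X : Set (Matrix ι ι F))
    (hcomm : ∀ x ∈ X, ∀ y ∈ X, x * y = y * x) (hN : Nrm H X) (hC : S.Cl X) {x : Matrix ι ι F}
    (hx : x ∈ X) (hns : ¬ ∃ c : F, x = c • (1 : Matrix ι ι F)) : ¬ S.Prim H := by
  intro hP
  refine hns (hP (Algebra.adjoin F X) (fun a ha b hb => ?_) (fun h hh a ha => ?_)
    (fun a ha => ?_) x (Algebra.subset_adjoin hx))
  · exact Algebra.commute_of_mem_adjoin_of_forall_mem_commute hb fun y hy =>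
      (Algebra.commute_of_mem_adjoin_of_forall_mem_commute ha fun z hz => hcomm y hy z hz).symm
  · refine Algebra.adjoin_induction (p := fun a _ => cj h a ∈ Algebra.adjoin F X) ?_ ?_ ?_ ?_ ha
    · intro y hy; exact Algebra.subset_adjoin (hN h hh y hy)
    · intro c; rw [AlgEquiv.commutes]; exact Subalgebra.algebraMap_mem _ c
    · intro a b _ _ ha hb; rw [map_add]; exact add_mem ha hb
    · intro a b _ _ ha hb; rw [map_mul]; exact mul_mem ha hb
  · refine Algebra.adjoin_induction (p := fun a _ => S.st a ∈ Algebra.adjoin F X) ?_ ?_ ?_ ?_ ha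
    · intro y hy; exact Algebra.subset_adjoin (hC y hy)
    · intro c
      rw [Algebra.algebraMap_eq_smul_one, SF.st_smul_one]
      exact Subalgebra.smul_mem _ (one_mem _) _
    · intro a b _ _ ha hb; rw [SF.st_add]; exact add_mem ha hb
    · intro a b _ _ ha hb; rw [SF.st_mul]; exact mul_mem hb ha

theorem IsWr.prim [NeZero t] [NeZero k] {S : SF ι F} {H : Subgroup (GL ι F)}
    {e : ι ≃ (Fin t → Fin k)} {P : GL ι F} {T₀ : SF (Fin k) F} (W : IsWr S H e P fun _ => T₀)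
    (hH : H ≤ similarityGroup S.f) (hP : S.Prim H) : T₀.Prim (similarityGroup T₀.f) := by
  intro K hcomm hN hC x hx
  by_contra hns
  refine S.not_prim_of_set {y | ∃ i, ∃ a ∈ K, y = tr e P (fac i a)} ?_ ?_ ?_ ⟨0, x, hx, rfl⟩ ?_ hP
  · rintro _ ⟨i, a, ha, rfl⟩ _ ⟨j, b, hb, rfl⟩
    rw [← map_mul, ← map_mul]
    congr 1
    by_cases hij : i = j
    · subst hij; rw [← map_mul, ← map_mul, hcomm a ha b hb]
    · exact commute_fac hij a b
  · rintro h hh _ ⟨i, a, ha, rfl⟩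
    obtain ⟨s, τ, hs, rfl⟩ := W.exists_sim hH hh
    exact ⟨τ i, _, hN _ (hs (τ i)) a ha, by rw [cj_trGL, cj_mul, cj_fpermGL_fac, cj_ptensGL_fac]⟩
  · rintro _ ⟨i, a, ha, rfl⟩
    exact ⟨i, _, hC a ha, W.st_fac i a⟩
  · rintro ⟨c, hc⟩
    exact hns ⟨c, fac_injective 0 ((tr e P).injective (by
      rw [hc, map_smul, map_smul, map_one, map_one]))⟩

/-- G5: adjoint-closed tensor factors give a tensor power decomposition of the form -/
theorem SF.exists_isWr [NeZero t] [NeZero k] (S : SF ι F) {H : Subgroup (GL ι F)}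
    (e : ι ≃ (Fin t → Fin k)) (P : GL ι F) (hH : H ≤ tensorWreathSubgroup k t e P)
    (hC : ∀ i a, ∃ a', S.st (tr e P (fac i a)) = tr e P (fac i a')) :
    ∃ T : Fin t → SF (Fin k) F, IsWr S H e P T ∧ (S.σ ≠ RingHom.id F → ∀ i, (T i).ε = 1) := by
  obtain ⟨s, hs⟩ := exists_ptensGL_of_nrm (S.pull e P).G fun i a => by
    obtain ⟨a', ha'⟩ := hC i (a.map S.σ)
    rw [S.st_tr] at ha'
    refine ⟨a'ᵀ, ?_⟩
    rw [← fac_transpose, ← (tr e P).injective ha', SF.transpose_st, fac_map, SF.pull_σ,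
      map_map_invol S.σσ]
  have hh := (S.pull e P).herm
  have h1 : ptensGL (fun i => SF.trpGL (SF.mapGL S.σ (s i))) =
      sc _ F (Units.mk0 _ S.ε_ne) * ptensGL s := Units.ext (by
    rw [hs, coe_ptensGL, cT_ptens] at hh
    rw [coe_sc_mul]; exact hh)
  have h2 : ∀ i, ∃ l : F, cT S.σ (s i : Matrix (Fin k) (Fin k) F) = l • (s i : Matrix _ _ F) :=
    fun i => by
      obtain ⟨l, hl⟩ := ptensGL_prop h1 i
      exact ⟨l, by rw [← coe_sc_mul, ← hl]; rfl⟩
  choose l hl using h2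
  choose c ε hε hε' hc using fun i => SF.exists_normalize S.σσ (s i) (hl i)
  refine ⟨fun i => ⟨S.σ, S.σσ, sc _ F (c i) * s i, ε i, hε i, by
    rw [coe_sc_mul, cT_smul, hl, smul_smul, smul_smul, hc]⟩,
    ⟨fun _ => rfl, ⟨(∏ i, c i)⁻¹, ?_⟩, hH⟩, fun h i => hε' i h⟩
  rw [ptensGL_sc_mul, map_inv, inv_mul_cancel_left, hs]

theorem IsTens.isWr {S : SF ι F} {H : Subgroup (GL ι F)} {e : ι ≃ Fin k × Fin k} {P : GL ι F}
    {S₁ S₂ : SF (Fin k) F} (T : IsTens S H e P S₁ S₂) :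
    IsWr S H (e.trans (finTwoArrowEquiv (Fin k)).symm) P ![S₁, S₂] where
  σ := by intro i; fin_cases i; exacts [T.σ₁, T.σ₂]
  G := ⟨1, by
    rw [map_one, one_mul]
    apply Units.ext
    ext x y
    have : ((S.pull e P).G : Matrix _ _ F) (x 0, x 1) (y 0, y 1) =
        (kronGL S₁.G S₂.G : Matrix _ _ F) (x 0, x 1) (y 0, y 1) := by rw [T.G]
    rw [coe_ptensGL, ptens_apply, Fin.prod_univ_two]
    exact this⟩
  le := T.le_tensor.trans (tensorProductSubgroup_le_wreath e P)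

/-- G5 for components -/
theorem SF.isWr_of_comps (S : SF ι F) {H : Subgroup (GL ι F)} (hH : H ≤ similarityGroup S.f)
    {L : Fin t → Subgroup (GL ι F)} {ψ : Fin t → (Matrix (Fin k) (Fin k) F →ₐ[F] Matrix ι ι F)}
    {e : ι ≃ (Fin t → Fin k)} {P : GL ι F} (h : Comps H L ψ e P) :
    ∃ T₀ : SF (Fin k) F, IsWr S H e P (fun _ => T₀) ∧ (S.σ ≠ RingHom.id F → T₀.ε = 1) := by
  have : NeZero t := ⟨by have := h.two_le_t; omega⟩
  have : NeZero k := ⟨by have := h.two_le_k; omega⟩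
  obtain ⟨T, W, hε⟩ := S.exists_isWr e P h.le_tensorWreathSubgroup fun i a => by
    obtain ⟨a', ha'⟩ : S.st (ψ i a) ∈ (ψ i).range := by
      rw [h.range]
      exact S.cl_spanA ((h.le i).trans hH) _ (by rw [← h.range]; exact ⟨a, rfl⟩)
    exact ⟨a', by rw [← h.fac, ← h.fac]; exact ha'.symm⟩
  refine ⟨T 0, W.of_prop (fun _ => W.σ 0) fun i => (T 0).exists_sc_of_st_eq _
    ((W.σ i).trans (W.σ 0).symm) fun a => ?_, fun h => hε h 0⟩
  obtain ⟨g, hg, -, hga⟩ := h.trans 0 i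
  apply fac_injective i
  apply (tr e P).injective
  rw [← W.st_fac, ← h.fac, ← h.fac, ← hga, ← hga, S.st_cj_of_sim (hH hg), h.fac, h.fac, W.st_fac]

/-- a component, seen in its tensor factor -/
theorem comps_factor {H : Subgroup (GL ι F)}
    {L : Fin t → Subgroup (GL ι F)} {ψ : Fin t → (Matrix (Fin k) (Fin k) F →ₐ[F] Matrix ι ι F)}
    {e : ι ≃ (Fin t → Fin k)} {P : GL ι F} (h : Comps H L ψ e P) (i : Fin t) :
    ∃ M : Subgroup (GL (Fin k) F), ⁅M, M⁆ = M ∧ M ≠ ⊥ ∧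
      M.map ((whom e P).comp (MonoidHom.mulSingle (fun _ => GL (Fin k) F) i)) = L i := by
  have : NeZero k := ⟨by have := h.two_le_k; omega⟩
  let φ := (whom e P).comp (MonoidHom.mulSingle (fun _ : Fin t => GL (Fin k) F) i)
  have hφ : ∀ a, (φ a : Matrix ι ι F) = ψ i a := fun a => by
    rw [h.fac]; exact coe_whom_mulSingle e P i a
  have hψ : Function.Injective (ψ i) := fun a b hab => by
    rw [h.fac, h.fac] at hab
    exact fac_injective i ((tr e P).injective hab)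
  have hinj : Function.Injective φ := fun a b hab => Units.ext (hψ (by rw [← hφ, ← hφ, hab]))
  have hle : L i ≤ φ.range := fun x hx => by
    obtain ⟨a, ha⟩ : (x : Matrix ι ι F) ∈ (ψ i).range := h.range i ▸ coe_mem_spanA hx
    obtain ⟨b, hb⟩ : ((x⁻¹ : GL ι F) : Matrix ι ι F) ∈ (ψ i).range :=
      h.range i ▸ coe_mem_spanA ((L i).inv_mem hx)
    have ha : ψ i a = x := ha
    have hb : ψ i b = ((x⁻¹ : GL ι F) : Matrix ι ι F) := hb
    exact ⟨⟨a, b, hψ (by rw [map_mul, ha, hb, map_one, Units.mul_inv]),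
      hψ (by rw [map_mul, ha, hb, map_one, Units.inv_mul])⟩, Units.ext (by rw [hφ]; exact ha)⟩
  have hmap := Subgroup.map_comap_eq_self hle
  refine ⟨(L i).comap φ, Subgroup.map_injective hinj ?_, fun h0 => ?_, hmap⟩
  · rw [Subgroup.map_commutator, hmap, h.perfect]
  · rw [h0, Subgroup.map_bot] at hmap
    exact (h.minN i).not_le (hmap ▸ bot_le)

end Wr

end H28.AF
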